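import Mathlib

/-!
Two primes in `(m, 2m]` for `m ≥ 6`: a strengthening of Bertrand's postulate, following the proof in
Mathlib, with one exceptional prime allowed.
-/

set_option autoImplicit false

namespace Cfsg.Agent.Lib.Recog

section Real

open Real

theorem real_main_inequality_two {x : ℝ} (x_large : (512 : ℝ) ≤ x) :
    x * (2 * x) * (2 * x) ^ √(2 * x) * 4 ^ (2 * x / 3) ≤ 4 ^ x := by
  let f : ℝ → ℝ := fun x => log x + log x + log 2 + √(2 * x) * log (2 * x) - log 4 / 3 * x
  have hf' : ∀ x, 0 < x → 0 < x * (2 * x) * (2 * x) ^ √(2 * x) / 4 ^ (x / 3) := fun x h =>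
    div_pos (mul_pos (mul_pos h (mul_pos two_pos h)) (rpow_pos_of_pos (mul_pos two_pos h) _))
      (rpow_pos_of_pos four_pos _)
  have hf : ∀ x, 0 < x → f x = log (x * (2 * x) * (2 * x) ^ √(2 * x) / 4 ^ (x / 3)) := by
    intro x h5
    have h6 := mul_pos (zero_lt_two' ℝ) h5
    have h7 := rpow_pos_of_pos h6 (√(2 * x))
    rw [log_div (mul_pos (mul_pos h5 h6) h7).ne' (rpow_pos_of_pos four_pos _).ne',
      log_mul (mul_pos h5 h6).ne' h7.ne', log_mul h5.ne' h6.ne', log_mul two_ne_zero h5.ne',
      log_rpow h6, log_rpow zero_lt_four]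
    simp only [f]
    ring
  have h5 : 0 < x := lt_of_lt_of_le (by norm_num1) x_large
  rw [← div_le_one (rpow_pos_of_pos four_pos x), ← div_div_eq_mul_div, ← rpow_sub four_pos, ←
    mul_div 2 x, mul_div_left_comm, ← mul_one_sub, (by norm_num1 : (1 : ℝ) - 2 / 3 = 1 / 3),
    mul_one_div, ← log_nonpos_iff (hf' x h5).le, ← hf x h5]
  have h : ConcaveOn ℝ (Set.Ioi 0.5) f := by
    apply ConcaveOn.sub
    · apply ConcaveOn.add
      · apply ConcaveOn.add
        · apply ConcaveOn.add
          · exact strictConcaveOn_log_Ioi.concaveOn.subset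
              (Set.Ioi_subset_Ioi (by norm_num)) (convex_Ioi 0.5)
          · exact strictConcaveOn_log_Ioi.concaveOn.subset
              (Set.Ioi_subset_Ioi (by norm_num)) (convex_Ioi 0.5)
        · exact concaveOn_const _ (convex_Ioi 0.5)
      convert!
        ((strictConcaveOn_sqrt_mul_log_Ioi.concaveOn.comp_linearMap ((2 : ℝ) • LinearMap.id)))
        using 1
      ext x
      simp only [Set.mem_Ioi, Set.mem_preimage, LinearMap.smul_apply,
        LinearMap.id_coe, id_eq, smul_eq_mul]
      rw [← mul_lt_mul_iff_right₀ (two_pos)]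
      norm_num1
      rfl
    apply ConvexOn.smul
    · refine div_nonneg (log_nonneg (by norm_num1)) (by norm_num1)
    · exact convexOn_id (convex_Ioi (0.5 : ℝ))
  suffices ∃ x1 x2, 0.5 < x1 ∧ x1 < x2 ∧ x2 ≤ x ∧ 0 ≤ f x1 ∧ f x2 ≤ 0 by
    obtain ⟨x1, x2, h1, h2, h0, h3, h4⟩ := this
    exact (h.right_le_of_le_left'' h1 ((h1.trans h2).trans_le h0) h2 h0 (h4.trans h3)).trans h4
  refine ⟨18, 512, by norm_num1, by norm_num1, x_large, ?_, ?_⟩
  · have : √(2 * 18 : ℝ) = 6 := (sqrt_eq_iff_mul_self_eq_of_pos (by norm_num1)).mpr (by norm_num1)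
    rw [hf _ (by norm_num1), log_nonneg_iff (by positivity), this, one_le_div (by norm_num1)]
    norm_num1
  · have : √(2 * 512) = 32 :=
      (sqrt_eq_iff_mul_self_eq_of_pos (by norm_num1)).mpr (by norm_num1)
    rw [hf _ (by norm_num1), log_nonpos_iff (hf' _ (by norm_num1)).le, this,
        div_le_one (by positivity)]
    have e0 : ((2 * 512 : ℝ)) ^ (32 : ℝ) = (2 * 512 : ℝ) ^ (32 : ℕ) := by
      rw [← rpow_natCast]; norm_num
    have e1 : ((512 : ℝ) * (2 * 512) * (2 * 512) ^ (32 : ℝ)) = (2 : ℝ) ^ (339 : ℝ) := by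
      rw [e0, show (339 : ℝ) = ((339 : ℕ) : ℝ) by norm_num, rpow_natCast,
        show (339 : ℕ) = 9 + 10 + 10 * 32 by norm_num, pow_add, pow_add, pow_mul]
      norm_num
    have e2 : (4 : ℝ) ^ ((512 : ℝ) / 3) = 2 ^ ((1024 : ℝ) / 3) := by
      rw [show (4 : ℝ) = 2 ^ (2 : ℝ) by norm_num, ← rpow_mul (by norm_num)]; norm_num
    rw [e1, e2]
    apply rpow_le_rpow_of_exponent_le
    · norm_num
    · norm_num

end Real

open Nat

theorem main_inequality_two {n : ℕ} (n_large : 512 ≤ n) :
    n * (2 * n) * (2 * n) ^ sqrt (2 * n) * 4 ^ (2 * n / 3) ≤ 4 ^ n := by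
  rw [← @cast_le ℝ]
  simp only [cast_mul, cast_pow, ← Real.rpow_natCast, cast_ofNat]
  refine _root_.trans ?_ (real_main_inequality_two (by exact_mod_cast n_large))
  gcongr
  · have n2_pos : 0 < 2 * n := by positivity
    exact mod_cast n2_pos
  · exact_mod_cast Real.nat_sqrt_le_real_sqrt
  · norm_num1
  · exact cast_div_le.trans (by norm_cast)

/-- If there is at most one prime in `(n, 2n]`, then the central binomial coefficient is small. -/
theorem centralBinom_le_of_one_prime (n : ℕ) (n_large : 2 < n)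
    (no_prime : ∀ p q : ℕ, p.Prime → q.Prime → n < p → p ≤ 2 * n → n < q → q ≤ 2 * n → p = q) :
    centralBinom n ≤ (2 * n) * ((2 * n) ^ sqrt (2 * n) * 4 ^ (2 * n / 3)) := by
  have n_pos : 0 < n := (Nat.zero_le _).trans_lt n_large
  have n2_pos : 1 ≤ 2 * n := mul_pos (zero_lt_two' ℕ) n_pos
  let S := {p ∈ Finset.range (2 * n / 3 + 1) | Nat.Prime p}
  let f x := x ^ n.centralBinom.factorization x
  have hS : ∏ x ∈ S, f x = ∏ x ∈ Finset.range (2 * n / 3 + 1), f x := by
    refine Finset.prod_filter_of_ne fun p _ h => ?_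
    contrapose h; dsimp only [f]
    rw [factorization_eq_zero_of_not_prime n.centralBinom h, _root_.pow_zero]
  have hsmall : ∏ x ∈ S, f x ≤ (2 * n) ^ sqrt (2 * n) * 4 ^ (2 * n / 3) := by
    rw [← Finset.prod_filter_mul_prod_filter_not S (· ≤ sqrt (2 * n))]
    apply mul_le_mul'
    · refine (Finset.prod_le_prod' fun p _ => (?_ : f p ≤ 2 * n)).trans ?_
      · exact pow_factorization_choose_le (mul_pos two_pos n_pos)
      have : (Finset.Icc 1 (sqrt (2 * n))).card = sqrt (2 * n) := by
        rw [card_Icc, Nat.add_sub_cancel]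
      rw [Finset.prod_const]
      refine pow_right_mono₀ n2_pos ((Finset.card_le_card fun x hx => ?_).trans this.le)
      obtain ⟨h1, h2⟩ := Finset.mem_filter.1 hx
      exact Finset.mem_Icc.mpr ⟨(Finset.mem_filter.1 h1).2.one_lt.le, h2⟩
    · refine le_trans ?_ (primorial_le_four_pow (2 * n / 3))
      refine (Finset.prod_le_prod' fun p hp => (?_ : f p ≤ p)).trans ?_
      · obtain ⟨h1, h2⟩ := Finset.mem_filter.1 hp
        refine (pow_right_mono₀ (Finset.mem_filter.1 h1).2.one_lt.le ?_).trans (pow_one p).le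
        exact Nat.factorization_choose_le_one (sqrt_lt'.mp <| not_le.1 h2)
      refine Finset.prod_le_prod_of_subset_of_one_le' (Finset.filter_subset _ _) ?_
      exact fun p hp _ => (Finset.mem_filter.1 hp).2.one_lt.le
  -- split the full product
  have hfull : centralBinom n = (∏ x ∈ Finset.range (2 * n / 3 + 1), f x) *
      ∏ x ∈ Finset.Ico (2 * n / 3 + 1) (2 * n + 1), f x := by
    conv_lhs => rw [← n.prod_pow_factorization_centralBinom]
    have hle : 2 * n / 3 + 1 ≤ 2 * n + 1 := by omega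
    rw [Finset.range_eq_Ico, Finset.range_eq_Ico,
      ← Finset.prod_Ico_consecutive f (Nat.zero_le _) hle]
  have hone : ∀ x ∈ Finset.Ico (2 * n / 3 + 1) (2 * n + 1), (¬ (x.Prime ∧ n < x)) → f x = 1 := by
    intro x hx hnot
    rw [Finset.mem_Ico] at hx
    have h2x : 2 * n < 3 * x := by omega
    by_cases hp : x.Prime
    · have hle : x ≤ n := by
        by_contra hc
        exact hnot ⟨hp, by omega⟩
      simp only [f]
      rw [factorization_centralBinom_of_two_mul_self_lt_three_mul n_large hle h2x, Nat.pow_zero]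
    · simp only [f]
      rw [factorization_eq_zero_of_not_prime n.centralBinom hp, Nat.pow_zero]
  have hlarge : ∏ x ∈ Finset.Ico (2 * n / 3 + 1) (2 * n + 1), f x ≤ 2 * n := by
    by_cases hex : ∃ p, p.Prime ∧ n < p ∧ p ≤ 2 * n
    · obtain ⟨p, hp, h1, h2⟩ := hex
      have hmem : p ∈ Finset.Ico (2 * n / 3 + 1) (2 * n + 1) := by
        rw [Finset.mem_Ico]; omega
      rw [Finset.prod_eq_single_of_mem p hmem]
      · exact pow_factorization_choose_le (mul_pos two_pos n_pos)
      · intro x hx hxp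
        apply hone x hx
        rintro ⟨hxprime, hxn⟩
        rw [Finset.mem_Ico] at hx
        exact hxp (no_prime x p hxprime hp hxn (by omega) h1 h2)
    · rw [Finset.prod_eq_one]
      · omega
      · intro x hx
        apply hone x hx
        rintro ⟨hxprime, hxn⟩
        rw [Finset.mem_Ico] at hx
        exact hex ⟨x, hxprime, hxn, by omega⟩
  rw [hfull, ← hS, mul_comm]
  exact Nat.mul_le_mul hlarge hsmall

theorem exists_two_primes_eventually (n : ℕ) (h : 512 ≤ n) :
    ∃ p q : ℕ, p.Prime ∧ q.Prime ∧ n < p ∧ p < q ∧ q ≤ 2 * n := by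
  by_contra hc
  push Not at hc
  have no_prime : ∀ p q : ℕ, p.Prime → q.Prime → n < p → p ≤ 2 * n → n < q → q ≤ 2 * n → p = q := by
    intro p q hp hq h1 h2 h3 h4
    rcases lt_trichotomy p q with h | h | h
    · exact absurd h4 (not_le.mpr (hc p q hp hq h1 h))
    · exact h
    · exact absurd h2 (not_le.mpr (hc q p hq hp h3 h))
  have h1 := Nat.four_pow_lt_mul_centralBinom n (by omega)
  have h2 := centralBinom_le_of_one_prime n (by omega) no_prime
  have h3 := main_inequality_two h
  have h4 : n * n.centralBinom ≤ n * ((2 * n) * ((2 * n) ^ sqrt (2 * n) * 4 ^ (2 * n / 3))) :=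
    Nat.mul_le_mul_left _ h2
  have h5 : n * ((2 * n) * ((2 * n) ^ sqrt (2 * n) * 4 ^ (2 * n / 3))) =
      n * (2 * n) * (2 * n) ^ sqrt (2 * n) * 4 ^ (2 * n / 3) := by ring
  omega

/-- For `n ≥ 6` there are at least two primes in `(n, 2n]`. -/
theorem exists_two_primes (n : ℕ) (h : 6 ≤ n) :
    ∃ p q : ℕ, p.Prime ∧ q.Prime ∧ n < p ∧ p < q ∧ q ≤ 2 * n := by
  rcases le_or_gt 512 n with h' | h'
  · exact exists_two_primes_eventually n h'
  by_cases h1 : n < 7
  · exact ⟨7, 11, by norm_num, by norm_num, by omega, by norm_num, by omega⟩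
  by_cases h2 : n < 11
  · exact ⟨11, 13, by norm_num, by norm_num, by omega, by norm_num, by omega⟩
  by_cases h3 : n < 13
  · exact ⟨13, 19, by norm_num, by norm_num, by omega, by norm_num, by omega⟩
  by_cases h4 : n < 19
  · exact ⟨19, 23, by norm_num, by norm_num, by omega, by norm_num, by omega⟩
  by_cases h5 : n < 23
  · exact ⟨23, 37, by norm_num, by norm_num, by omega, by norm_num, by omega⟩
  by_cases h6 : n < 37
  · exact ⟨37, 43, by norm_num, by norm_num, by omega, by norm_num, by omega⟩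
  by_cases h7 : n < 43
  · exact ⟨43, 73, by norm_num, by norm_num, by omega, by norm_num, by omega⟩
  by_cases h8 : n < 73
  · exact ⟨73, 83, by norm_num, by norm_num, by omega, by norm_num, by omega⟩
  by_cases h9 : n < 83
  · exact ⟨83, 139, by norm_num, by norm_num, by omega, by norm_num, by omega⟩
  by_cases h10 : n < 139
  · exact ⟨139, 163, by norm_num, by norm_num, by omega, by norm_num, by omega⟩
  by_cases h11 : n < 163
  · exact ⟨163, 277, by norm_num, by norm_num, by omega, by norm_num, by omega⟩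
  by_cases h12 : n < 277
  · exact ⟨277, 317, by norm_num, by norm_num, by omega, by norm_num, by omega⟩
  by_cases h13 : n < 317
  · exact ⟨317, 547, by norm_num, by norm_num, by omega, by norm_num, by omega⟩
  · exact ⟨547, 631, by norm_num, by norm_num, by omega, by norm_num, by omega⟩

end Cfsg.Agent.Lib.Recog
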