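import Mathlib
import Cfsg.Agent.S0721
import Cfsg.Agent.Lib.Recog.TwoPrimes
import Cfsg.Agent.Lib.Basic.Hall

/-!
Groups with the order and the spectrum of an alternating group: primes in `(n/2, n]` all divide one
chief factor, which is nonabelian simple.
-/

set_option autoImplicit false

namespace Cfsg.Agent.Lib.Recog

open Subgroup

section Group

variable {G : Type*} [Group G] [Finite G]

/-- The spectrum of a finite group is closed under divisors. -/
theorem exists_orderOf_of_dvd {x : G} {n : ℕ} (h : n ∣ orderOf x) : ∃ g : G, orderOf g = n :=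
  ⟨x ^ (orderOf x / n), orderOf_pow_orderOf_div (orderOf_pos x).ne' h⟩

/-- Frattini argument: a normal subgroup `M` with Sylow `r`-subgroup of order `r`, an `s`-element
of `G` outside `M`, `s ∤ r - 1`: then `G` has an element of order `r * s`. -/
theorem exists_order_mul_of_normal (M : Subgroup G) [M.Normal] {r s : ℕ} (hr : r.Prime)
    (hs : s.Prime) (hsM : ¬ s ∣ Nat.card M) (hrM : r ∣ Nat.card M) (hr2 : ¬ r ^ 2 ∣ Nat.card M)
    (hsG : s ∣ Nat.card G) (hsr : ¬ s ∣ r - 1) : ∃ g : G, orderOf g = r * s := by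
  haveI := Fact.mk hr
  haveI := Fact.mk hs
  obtain ⟨P⟩ : Nonempty (Sylow r M) := inferInstance
  have hcardP : Nat.card P = r := by
    rw [Sylow.card_eq_multiplicity]
    have h1 : (Nat.card M).factorization r ≠ 0 := by
      have hpos : Nat.card M ≠ 0 := Nat.card_pos.ne'
      have := (hr.dvd_iff_one_le_factorization hpos).mp hrM
      omega
    have h2 : (Nat.card M).factorization r < 2 := by
      by_contra hc
      exact hr2 ((hr.pow_dvd_iff_le_factorization Nat.card_pos.ne').mpr (by omega))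
    have h3 : (Nat.card M).factorization r = 1 := by omega
    rw [h3, pow_one]
  set P' : Subgroup G := (P : Subgroup M).map M.subtype with hP'
  have hcardP' : Nat.card P' = r := by
    rw [hP', Subgroup.card_map_of_injective M.subtype_injective]
    exact hcardP
  have hN : normalizer (P' : Set G) ⊔ M = ⊤ := Sylow.normalizer_sup_eq_top P
  have hsN : s ∣ Nat.card (normalizer (P' : Set G)) := by
    have h1 : M.relIndex (M ⊔ normalizer (P' : Set G)) = M.relIndex (normalizer (P' : Set G)) :=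
      Subgroup.relIndex_sup_left _ _
    rw [sup_comm, hN, Subgroup.relIndex_top_right] at h1
    have h2 : s ∣ M.index := by
      have h3 := Subgroup.card_mul_index M
      rw [← h3] at hsG
      exact (hs.dvd_mul.mp hsG).resolve_left hsM
    rw [h1] at h2
    exact h2.trans (Subgroup.relIndex_dvd_card _ _)
  obtain ⟨y, hy⟩ := exists_prime_orderOf_dvd_card' s hsN
  haveI hcyc : IsCyclic P' := isCyclic_of_prime_card hcardP'
  have hφ : P'.normalizerMonoidHom y = 1 := by
    have h1 : P'.normalizerMonoidHom y ^ s = 1 := by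
      rw [← map_pow, ← hy, pow_orderOf_eq_one, map_one]
    have h2 : P'.normalizerMonoidHom y ^ (r - 1) = 1 := by
      have h3 := IsCyclic.card_mulAut P'
      rw [hcardP', Nat.totient_prime hr] at h3
      rw [← h3]
      exact pow_card_eq_one'
    have h3 : orderOf (P'.normalizerMonoidHom y) ∣ Nat.gcd s (r - 1) :=
      Nat.dvd_gcd (orderOf_dvd_of_pow_eq_one h1) (orderOf_dvd_of_pow_eq_one h2)
    rw [(hs.coprime_iff_not_dvd.mpr hsr : Nat.gcd s (r - 1) = 1), Nat.dvd_one,
      orderOf_eq_one_iff] at h3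
    exact h3
  have hrP' : r ∣ Nat.card P' := by rw [hcardP']
  obtain ⟨x, hx⟩ := exists_prime_orderOf_dvd_card' r hrP'
  have hc : Commute (x : G) (y : G) := by
    have h1 : y ∈ P'.normalizerMonoidHom.ker := hφ
    rw [Subgroup.normalizerMonoidHom_ker, Subgroup.mem_subgroupOf] at h1
    exact Subgroup.mem_centralizer_iff.mp h1 x x.2
  refine ⟨x * y, ?_⟩
  have h1 : orderOf (x : G) = r := by rw [Subgroup.orderOf_coe, hx]
  have h2 : orderOf (y : G) = s := by rw [Subgroup.orderOf_coe, hy]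
  have hne : r ≠ s := by
    rintro rfl
    exact hsM hrM
  have hcop : r.Coprime s := (Nat.coprime_primes hr hs).mpr hne
  rw [hc.orderOf_mul_eq_mul_orderOf_of_coprime (by rwa [h1, h2]), h1, h2]

/-- The section `M / L` as a subgroup of `G / L`. -/
noncomputable def secEquiv (L M : Subgroup G) [L.Normal] :
    (M ⧸ L.subgroupOf M) ≃* M.map (QuotientGroup.mk' L) :=
  (QuotientGroup.quotientMulEquivOfEq (by
      ext x
      simp [Subgroup.mem_subgroupOf, MonoidHom.mem_ker] :
      L.subgroupOf M = ((QuotientGroup.mk' L).comp M.subtype).ker)).trans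
    ((QuotientGroup.quotientKerEquivRange _).trans
      (MulEquiv.subgroupCongr (by rw [MonoidHom.range_comp, Subgroup.range_subtype])))

theorem card_sec_mul (L M : Subgroup G) (hLM : L ≤ M) :
    Nat.card M = Nat.card (M ⧸ L.subgroupOf M) * Nat.card L := by
  rw [Subgroup.card_eq_card_quotient_mul_card_subgroup (L.subgroupOf M),
    Nat.card_congr (Subgroup.subgroupOfEquivOfLe hLM).toEquiv]

/-- All primes of `π` divide the same chief factor. -/
theorem exists_chief_section {π : Set ℕ}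
    (hpr : ∀ p ∈ π, p.Prime) (hdvd : ∀ p ∈ π, p ∣ Nat.card G) (hsq : ∀ p ∈ π, ¬ p ^ 2 ∣ Nat.card G)
    (hnd : ∀ p ∈ π, ∀ q ∈ π, p ≠ q → ¬ q ∣ p - 1)
    (hno : ∀ p ∈ π, ∀ q ∈ π, p ≠ q → ∀ g : G, orderOf g ≠ p * q)
    {p₀ : ℕ} (hp₀ : p₀ ∈ π) :
    ∃ L M : Subgroup G, L.Normal ∧ M.Normal ∧ L < M ∧
      (∀ K : Subgroup G, K.Normal → L ≤ K → K ≤ M → K = L ∨ K = M) ∧
      ∀ p ∈ π, p ∣ Nat.card (M ⧸ L.subgroupOf M) := by
  classical
  have hp₀pr := hpr _ hp₀
  -- choose `L`
  have hfin : {L : Subgroup G | L.Normal ∧ ¬ p₀ ∣ Nat.card L}.Finite := Set.toFinite _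
  obtain ⟨L, hL⟩ := hfin.exists_maximal ⟨⊥, Subgroup.normal_bot, by
    simp [Subgroup.card_bot, hp₀pr.one_lt.ne']⟩
  obtain ⟨hLn, hLp⟩ := hL.prop
  have hLtop : L ≠ ⊤ := by
    rintro rfl
    exact hLp (by rw [Subgroup.card_top]; exact hdvd _ hp₀)
  have hfin2 : {K : Subgroup G | K.Normal ∧ L < K}.Finite := Set.toFinite _
  obtain ⟨M, hM⟩ := hfin2.exists_minimal ⟨⊤, Subgroup.normal_top, lt_top_iff_ne_top.mpr hLtop⟩
  obtain ⟨hMn, hLM⟩ := hM.prop
  have hp₀M : p₀ ∣ Nat.card M := by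
    by_contra hc
    have := hL.le_of_ge (y := M) ⟨hMn, hc⟩ hLM.le
    exact hLM.not_ge this
  have hsec := card_sec_mul L M hLM.le
  have hp₀sec : p₀ ∣ Nat.card (M ⧸ L.subgroupOf M) := by
    rw [hsec] at hp₀M
    exact (hp₀pr.dvd_mul.mp hp₀M).resolve_right hLp
  refine ⟨L, M, hLn, hMn, hLM, ?_, ?_⟩
  · intro K hKn hLK hKM
    by_cases h : K = L
    · exact Or.inl h
    · right
      exact le_antisymm hKM (hM.le_of_le ⟨hKn, lt_of_le_of_ne hLK (Ne.symm h)⟩ hKM)
  · intro q hq
    by_cases hqp : q = p₀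
    · rwa [hqp]
    by_contra hqsec
    have hqpr := hpr _ hq
    by_cases hqL : q ∣ Nat.card L
    · -- the prime `q` is below
      have hq2 : ¬ q ^ 2 ∣ Nat.card L := fun h =>
        hsq q hq (h.trans (Subgroup.card_subgroup_dvd_card L))
      obtain ⟨g, hg⟩ := exists_order_mul_of_normal L hqpr hp₀pr hLp hqL hq2 (hdvd _ hp₀)
        (hnd q hq p₀ hp₀ hqp)
      exact hno q hq p₀ hp₀ hqp g hg
    · -- the prime `q` is above
      have hmapcard : Nat.card (M.map (QuotientGroup.mk' L)) = Nat.card (M ⧸ L.subgroupOf M) :=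
        (Nat.card_congr (secEquiv L M).toEquiv).symm
      have hGL : Nat.card G = Nat.card (G ⧸ L) * Nat.card L :=
        Subgroup.card_eq_card_quotient_mul_card_subgroup L
      have hq1 : ¬ q ∣ Nat.card (M.map (QuotientGroup.mk' L)) := by rwa [hmapcard]
      have hq2 : p₀ ∣ Nat.card (M.map (QuotientGroup.mk' L)) := by rwa [hmapcard]
      have hq3 : ¬ p₀ ^ 2 ∣ Nat.card (M.map (QuotientGroup.mk' L)) := by
        rw [hmapcard]
        intro h
        apply hsq p₀ hp₀
        refine h.trans ?_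
        exact (Dvd.intro _ hsec.symm).trans (Subgroup.card_subgroup_dvd_card M)
      have hq4 : q ∣ Nat.card (G ⧸ L) := by
        have := hdvd q hq
        rw [hGL] at this
        exact (hqpr.dvd_mul.mp this).resolve_right hqL
      haveI : (M.map (QuotientGroup.mk' L)).Normal :=
        Subgroup.Normal.map hMn _ (QuotientGroup.mk'_surjective L)
      obtain ⟨g, hg⟩ := exists_order_mul_of_normal (M.map (QuotientGroup.mk' L)) hp₀pr hqpr
        hq1 hq2 hq3 hq4 (hnd p₀ hp₀ q hq (Ne.symm hqp))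
      obtain ⟨g', rfl⟩ := QuotientGroup.mk'_surjective L g
      have hd : orderOf ((QuotientGroup.mk' L) g') ∣ orderOf g' := orderOf_map_dvd _ _
      rw [hg] at hd
      obtain ⟨g'', hg''⟩ := exists_orderOf_of_dvd hd
      exact hno p₀ hp₀ q hq (Ne.symm hqp) g'' hg''

/-- The chief factor is a nonabelian simple group. -/
theorem exists_simple_section {π : Set ℕ}
    (hpr : ∀ p ∈ π, p.Prime) (hdvd : ∀ p ∈ π, p ∣ Nat.card G) (hsq : ∀ p ∈ π, ¬ p ^ 2 ∣ Nat.card G)
    (hnd : ∀ p ∈ π, ∀ q ∈ π, p ≠ q → ¬ q ∣ p - 1)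
    (hno : ∀ p ∈ π, ∀ q ∈ π, p ≠ q → ∀ g : G, orderOf g ≠ p * q)
    {p₀ q₀ : ℕ} (hp₀ : p₀ ∈ π) (hq₀ : q₀ ∈ π) (hne : p₀ ≠ q₀) :
    ∃ (N H : Subgroup G) (_ : N.Normal), H.Normal ∧ N < H ∧
      IsSimpleGroup (↥H ⧸ N.subgroupOf H) ∧ ¬ IsMulCommutative (↥H ⧸ N.subgroupOf H) ∧
      ∀ p ∈ π, p ∣ Nat.card (↥H ⧸ N.subgroupOf H) := by
  obtain ⟨L, M, hLn, hMn, hLM, hmin, hall⟩ := exists_chief_section hpr hdvd hsq hnd hno hp₀
  haveI := hLn
  haveI := hMn
  have hp₀pr := hpr _ hp₀
  have hq₀pr := hpr _ hq₀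
  set X : Subgroup (G ⧸ L) := M.map (QuotientGroup.mk' L) with hX
  haveI hXn : X.Normal := Subgroup.Normal.map hMn _ (QuotientGroup.mk'_surjective L)
  have hcX : Nat.card X = Nat.card (M ⧸ L.subgroupOf M) :=
    (Nat.card_congr (secEquiv L M).toEquiv).symm
  have hsecG : Nat.card (M ⧸ L.subgroupOf M) ∣ Nat.card G :=
    (Dvd.intro _ (card_sec_mul L M hLM.le).symm).trans (Subgroup.card_subgroup_dvd_card M)
  have hXne : X ≠ ⊥ := by
    intro hbot
    have h1 : Nat.card X = 1 := by rw [hbot, Subgroup.card_bot]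
    have h2 := hall p₀ hp₀
    rw [← hcX, h1] at h2
    exact hp₀pr.one_lt.ne' (Nat.dvd_one.mp h2)
  have hXmin : ∀ K : Subgroup (G ⧸ L), K.Normal → K ≤ X → K = ⊥ ∨ K = X := by
    intro K hK hKX
    have hLK : L ≤ K.comap (QuotientGroup.mk' L) := by
      intro x hx
      rw [Subgroup.mem_comap]
      have : (QuotientGroup.mk' L) x = 1 := (QuotientGroup.eq_one_iff x).mpr hx
      rw [this]
      exact K.one_mem
    have hKM : K.comap (QuotientGroup.mk' L) ≤ M := by
      intro x hx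
      rw [Subgroup.mem_comap] at hx
      obtain ⟨y, hy, hyx⟩ := hKX hx
      have h1 : y⁻¹ * x ∈ L := by
        rw [← QuotientGroup.eq_one_iff]
        have h2 : ((y : G) : G ⧸ L) = ((x : G) : G ⧸ L) := hyx
        rw [QuotientGroup.mk_mul, QuotientGroup.mk_inv, h2, inv_mul_cancel]
      have h3 : x = y * (y⁻¹ * x) := by group
      rw [h3]
      exact M.mul_mem hy (hLM.le h1)
    have hsurj := QuotientGroup.mk'_surjective L
    rcases hmin _ (hK.comap _) hLK hKM with h | h
    · left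
      rw [← Subgroup.map_comap_eq_self_of_surjective hsurj K, h, eq_bot_iff]
      rintro _ ⟨x, hx, rfl⟩
      rw [Subgroup.mem_bot]
      exact (QuotientGroup.eq_one_iff x).mpr hx
    · right
      rw [← Subgroup.map_comap_eq_self_of_surjective hsurj K, h]
  obtain ⟨T, _, m, hT, hm, ⟨e⟩⟩ := Cfsg.Agent.S0721.result X hXne hXmin
  have hcardX : Nat.card X = (Nat.card T) ^ m := by
    rw [Nat.card_congr e.toEquiv, Nat.card_fun, Nat.card_fin]
  have hm1 : m = 1 := by
    by_contra hc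
    have hm2 : 2 ≤ m := by omega
    have h1 : p₀ ∣ Nat.card T ^ m := by
      rw [← hcardX, hcX]
      exact hall p₀ hp₀
    have h2 : p₀ ∣ Nat.card T := hp₀pr.dvd_of_dvd_pow h1
    have h3 : p₀ ^ 2 ∣ Nat.card T ^ m :=
      (pow_dvd_pow_of_dvd h2 2).trans (pow_dvd_pow _ hm2)
    rw [← hcardX, hcX] at h3
    exact hsq p₀ hp₀ (h3.trans hsecG)
  subst hm1
  have e' : (M ⧸ L.subgroupOf M) ≃* T :=
    (secEquiv L M).trans (e.trans (MulEquiv.funUnique (Fin 1) T))
  haveI hsimple : IsSimpleGroup (M ⧸ L.subgroupOf M) := e'.isSimpleGroup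
  refine ⟨L, M, hLn, hMn, hLM, hsimple, ?_, hall⟩
  intro hcomm
  have hdp := hall p₀ hp₀
  obtain ⟨x, hx⟩ := @exists_prime_orderOf_dvd_card' _ _ _ p₀ ⟨hp₀pr⟩ hdp
  have hnorm : (Subgroup.zpowers x).Normal := by
    constructor
    intro a ha g
    have h5 : g * a * g⁻¹ = a := by rw [hcomm.is_comm.comm g a, mul_inv_cancel_right]
    rw [h5]
    exact ha
  rcases hsimple.eq_bot_or_eq_top_of_normal _ hnorm with h | h
  · rw [Subgroup.zpowers_eq_bot] at h
    rw [h, orderOf_one] at hx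
    exact hp₀pr.one_lt.ne hx
  · have h1 : Nat.card (M ⧸ L.subgroupOf M) = p₀ := by
      rw [← Subgroup.card_top, ← h, Nat.card_zpowers, hx]
    have h2 := hall q₀ hq₀
    rw [h1] at h2
    exact hne ((Nat.prime_dvd_prime_iff_eq hq₀pr hp₀pr).mp h2).symm

/-- An `r`-Sylow of order `r` is normal when the index is a power of `s` avoiding `1 mod r`. -/
theorem exists_order_mul_of_card {r s a : ℕ} (hr : r.Prime) (hs : s.Prime) (hne : r ≠ s)
    (hcard : Nat.card G = s ^ a * r) (ha : 0 < a) (hnot : ∀ i ≤ a, s ^ i % r = 1 → i = 0)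
    (hsr : ¬ s ∣ r - 1) : ∃ g : G, orderOf g = r * s := by
  haveI := Fact.mk hr
  obtain ⟨P⟩ : Nonempty (Sylow r G) := inferInstance
  have hrs : ¬ r ∣ s ^ a := fun h => hne ((Nat.prime_dvd_prime_iff_eq hr hs).mp (hr.dvd_of_dvd_pow h))
  have hfact : (Nat.card G).factorization r = 1 := by
    rw [hcard, Nat.factorization_mul (pow_ne_zero _ hs.ne_zero) hr.ne_zero, Finsupp.add_apply,
      Nat.factorization_eq_zero_of_not_dvd hrs, hr.factorization_self]
  have hcardP : Nat.card P = r := by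
    rw [Sylow.card_eq_multiplicity, hfact, pow_one]
  have hindex : (P : Subgroup G).index = s ^ a := by
    have h1 := Subgroup.card_mul_index (P : Subgroup G)
    rw [hcardP, hcard, mul_comm (s ^ a)] at h1
    exact Nat.eq_of_mul_eq_mul_left hr.pos h1
  have hdvd : Nat.card (Sylow r G) ∣ s ^ a := by
    rw [← hindex]
    exact Sylow.card_dvd_index P
  obtain ⟨i, hi, hcount⟩ := (Nat.dvd_prime_pow hs).mp hdvd
  have h1 := card_sylow_modEq_one r G
  rw [hcount] at h1
  have hi0 : i = 0 := hnot i hi (by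
    have := h1
    rw [Nat.ModEq, Nat.mod_eq_of_lt hr.one_lt] at this
    exact this)
  rw [hi0, pow_zero] at hcount
  haveI : Subsingleton (Sylow r G) := (Nat.card_eq_one_iff_unique.mp hcount).1
  haveI hn : (P : Subgroup G).Normal := Sylow.normal_of_subsingleton P
  refine exists_order_mul_of_normal (P : Subgroup G) hr hs ?_ ?_ ?_ ?_ hsr
  · rw [hcardP]
    intro h
    exact hne ((Nat.prime_dvd_prime_iff_eq hs hr).mp h).symm
  · rw [hcardP]
  · rw [hcardP]
    intro h
    have := Nat.le_of_dvd hr.pos h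
    have h2 := hr.two_le
    nlinarith
  · rw [hcard]
    exact (dvd_pow_self s ha.ne').trans (Dvd.intro _ rfl)

end Group

/-- A permutation of `n` points whose order is divisible by primes `p ≠ q`, with `n < p + q` and
`n < p * q`, does not exist. -/
theorem not_dvd_orderOf_perm {n p q : ℕ} (hp : p.Prime) (hq : q.Prime) (hne : p ≠ q)
    (h1 : n < p + q) (h2 : n < p * q) (σ : Equiv.Perm (Fin n)) :
    ¬ (p ∣ orderOf σ ∧ q ∣ orderOf σ) := by
  classical
  rintro ⟨hpd, hqd⟩
  have hex : ∀ (s : Multiset ℕ) (r : ℕ), r.Prime → r ∣ s.lcm → ∃ a ∈ s, r ∣ a := by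
    intro s r hr
    induction s using Multiset.induction_on with
    | empty =>
      intro h
      simp only [Multiset.lcm_zero, Nat.dvd_one] at h
      exact absurd h hr.one_lt.ne'
    | cons b t ih =>
      intro h
      rw [Multiset.lcm_cons] at h
      have h3 : r ∣ b * t.lcm := h.trans (Nat.lcm_dvd_mul _ _)
      rcases hr.dvd_mul.mp h3 with h4 | h4
      · exact ⟨b, Multiset.mem_cons_self _ _, h4⟩
      · obtain ⟨a, ha, hra⟩ := ih h4
        exact ⟨a, Multiset.mem_cons_of_mem ha, hra⟩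
  rw [← Equiv.Perm.lcm_cycleType] at hpd hqd
  obtain ⟨a, ha, hpa⟩ := hex _ p hp hpd
  obtain ⟨t, ht⟩ := Multiset.exists_cons_of_mem ha
  have hsum := Equiv.Perm.sum_cycleType_le σ
  rw [Fintype.card_fin, ht, Multiset.sum_cons] at hsum
  have ha2 := Equiv.Perm.two_le_of_mem_cycleType ha
  rw [ht, Multiset.lcm_cons] at hqd
  have h3 : q ∣ a * t.lcm := hqd.trans (Nat.lcm_dvd_mul _ _)
  rcases hq.dvd_mul.mp h3 with h4 | h4
  · have hcop : p.Coprime q := (Nat.coprime_primes hp hq).mpr hne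
    have h5 : p * q ∣ a := hcop.mul_dvd_of_dvd_of_dvd hpa h4
    have h6 := Nat.le_of_dvd (by omega) h5
    omega
  · obtain ⟨b, hb, hqb⟩ := hex _ q hq h4
    have hb2 : 2 ≤ b := Equiv.Perm.two_le_of_mem_cycleType (by rw [ht]; exact Multiset.mem_cons_of_mem hb)
    have h5 := Nat.le_of_dvd (by omega) hpa
    have h6 := Nat.le_of_dvd (by omega) hqb
    have h7 : b ≤ t.sum := Multiset.le_sum_of_mem hb
    omega

/-- Basic facts on `Alt(n)` at large primes. -/
theorem prime_facts_alt {n p : ℕ} (hn : 5 ≤ n) (hp : p.Prime) (h1 : n < 2 * p) (h2 : p ≤ n) :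
    p ∣ Nat.card (alternatingGroup (Fin n)) ∧ ¬ p ^ 2 ∣ Nat.card (alternatingGroup (Fin n)) := by
  haveI : Nontrivial (Fin n) := Fin.nontrivial_iff_two_le.mpr (by omega)
  have hcard : 2 * Nat.card (alternatingGroup (Fin n)) = n.factorial := by
    rw [two_mul_nat_card_alternatingGroup, Nat.card_perm, Nat.card_fin]
  have hodd : p ≠ 2 := by
    rintro rfl
    omega
  constructor
  · have h3 : p ∣ 2 * Nat.card (alternatingGroup (Fin n)) := by
      rw [hcard]
      exact (hp.dvd_factorial).mpr h2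
    rcases hp.dvd_mul.mp h3 with h4 | h4
    · exact absurd ((Nat.prime_dvd_prime_iff_eq hp Nat.prime_two).mp h4) hodd
    · exact h4
  · intro h3
    have h4 : p ^ 2 ∣ n.factorial := by
      rw [← hcard]
      exact h3.trans (Dvd.intro_left _ rfl)
    have h5 : (n.factorial).factorization p = 1 := by
      have hlog : Nat.log p n < 2 := Nat.log_lt_of_lt_pow (by omega) (by
        have := hp.two_le
        nlinarith)
      rw [Nat.factorization_factorial hp hlog]
      simp only [Nat.Ico_succ_singleton, Finset.sum_singleton, pow_one]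
      exact Nat.div_eq_of_lt_le (by omega) (by omega)
    have h6 := (hp.pow_dvd_iff_le_factorization (Nat.factorial_ne_zero n)).mp h4
    omega

/-- The conclusion for a group with the order and spectrum of `Alt(n)`. -/
theorem alt_simple_section {G : Type*} [Group G] [Finite G] (n : ℕ) (hn : 5 ≤ n)
    (hcard : Nat.card G = Nat.card ↥(alternatingGroup (Fin n)))
    (hspec : Set.range (orderOf : G → ℕ) = Set.range (orderOf : ↥(alternatingGroup (Fin n)) → ℕ))
    {p₀ q₀ : ℕ} (hp₀ : p₀.Prime) (hq₀ : q₀.Prime) (h1 : n < 2 * p₀) (h2 : p₀ ≤ n)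
    (h3 : n < 2 * q₀) (h4 : q₀ ≤ n) (hne : p₀ ≠ q₀) :
    ∃ (N H : Subgroup G) (_ : N.Normal), H.Normal ∧ N < H ∧
      IsSimpleGroup (↥H ⧸ N.subgroupOf H) ∧ ¬ IsMulCommutative (↥H ⧸ N.subgroupOf H) ∧
      ∀ p : ℕ, p.Prime → n < 2 * p → p ≤ n → p ∣ Nat.card (↥H ⧸ N.subgroupOf H) := by
  let π : Set ℕ := {p | p.Prime ∧ n < 2 * p ∧ p ≤ n}
  have key := exists_simple_section (G := G) (π := π) (p₀ := p₀) (q₀ := q₀)
    (fun p hp => hp.1)
    (fun p hp => by
      rw [hcard]
      exact (prime_facts_alt hn hp.1 hp.2.1 hp.2.2).1)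
    (fun p hp => by
      rw [hcard]
      exact (prime_facts_alt hn hp.1 hp.2.1 hp.2.2).2)
    (fun p hp q hq hpq hd => by
      obtain ⟨hp1, hp2, hp3⟩ := hp
      obtain ⟨hq1, hq2, hq3⟩ := hq
      have hpodd : p % 2 = 1 := (hp1.eq_two_or_odd).resolve_left (by rintro rfl; omega)
      have hqodd : q % 2 = 1 := (hq1.eq_two_or_odd).resolve_left (by rintro rfl; omega)
      obtain ⟨k, hk⟩ := hd
      have hp4 := hp1.two_le
      have hk0 : k ≠ 0 := by
        rintro rfl
        omega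
      have hk1 : k ≠ 1 := by
        rintro rfl
        omega
      have hk2 : 2 ≤ k := by omega
      have : q * 2 ≤ q * k := Nat.mul_le_mul_left _ hk2
      omega)
    (fun p hp q hq hpq g hg => by
      have hm : orderOf g ∈ Set.range (orderOf : ↥(alternatingGroup (Fin n)) → ℕ) := by
        rw [← hspec]
        exact ⟨g, rfl⟩
      obtain ⟨σ, hσ⟩ := hm
      obtain ⟨hp1, hp2, hp3⟩ := hp
      obtain ⟨hq1, hq2, hq3⟩ := hq
      have h5 : orderOf (σ : Equiv.Perm (Fin n)) = p * q := by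
        rw [Subgroup.orderOf_coe, hσ, hg]
      refine not_dvd_orderOf_perm hp1 hq1 hpq (by omega) ?_ (σ : Equiv.Perm (Fin n))
        ⟨by rw [h5]; exact Dvd.intro _ rfl, by rw [h5]; exact Dvd.intro_left _ rfl⟩
      have h6 := hq1.two_le
      nlinarith)
    (show p₀ ∈ π from ⟨hp₀, h1, h2⟩) (show q₀ ∈ π from ⟨hq₀, h3, h4⟩) hne
  obtain ⟨N, H, hN, hH, hNH, hs, hc, hall⟩ := key
  exact ⟨N, H, hN, hH, hNH, hs, hc, fun p hp h5 h6 => hall p ⟨hp, h5, h6⟩⟩

end Cfsg.Agent.Lib.Recog
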