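import Mathlib

/-!
# Averaging over subgroups in a linear representation

For a linear action `ρ` of a finite group: the sum `sumS ρ M` of the action over a subgroup `M`,
the fixed subspace `Cfix ρ M`, and the summation identity over the subgroups of prime order of an
elementary abelian subgroup.
-/

set_option autoImplicit false

namespace Cfsg.Agent.Lib.Recog

open Finset

section
variable {k V G : Type*} [Field k] [AddCommGroup V] [Module k V] [Group G] [Fintype G]
variable (ρ : G →* (V ≃ₗ[k] V))

open Classical in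
/-- The sum of the action over the elements of `M`. -/
noncomputable def sumS (M : Subgroup G) : V →ₗ[k] V :=
  ∑ e : G, if e ∈ M then ((ρ e : V ≃ₗ[k] V) : V →ₗ[k] V) else 0

omit [Fintype G] in
/-- The subspace fixed by `M`. -/
def Cfix (M : Subgroup G) : Submodule k V where
  carrier := {v | ∀ m ∈ M, ρ m v = v}
  add_mem' := by
    intro a b ha hb m hm
    rw [map_add, ha m hm, hb m hm]
  zero_mem' := by
    intro m _
    exact map_zero _
  smul_mem' := by
    intro c a ha m hm
    rw [map_smul, ha m hm]

omit [Fintype G] in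
theorem mem_Cfix {M : Subgroup G} {v : V} : v ∈ Cfix ρ M ↔ ∀ m ∈ M, ρ m v = v := Iff.rfl

omit [Fintype G] in
/-- The stabiliser of a vector. -/
def fixSub (v : V) : Subgroup G where
  carrier := {g | ρ g v = v}
  one_mem' := by simp
  mul_mem' := by
    intro a b ha hb
    show ρ (a * b) v = v
    rw [map_mul, LinearEquiv.mul_apply, hb, ha]
  inv_mem' := by
    intro a ha
    show ρ a⁻¹ v = v
    have h : ρ a⁻¹ (ρ a v) = v := by
      rw [← LinearEquiv.mul_apply, ← map_mul]
      simp
    rwa [ha] at h

omit [Fintype G] in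
theorem mem_fixSub {v : V} {g : G} : g ∈ fixSub ρ v ↔ ρ g v = v := Iff.rfl

omit [Fintype G] in
theorem mem_Cfix_iff_le {M : Subgroup G} {v : V} : v ∈ Cfix ρ M ↔ M ≤ fixSub ρ v := Iff.rfl

open Classical in
theorem sumS_apply (M : Subgroup G) (v : V) : sumS ρ M v = ∑ e : G, if e ∈ M then ρ e v else 0 := by
  simp only [sumS, LinearMap.sum_apply]
  refine Finset.sum_congr rfl fun e _ => ?_
  split_ifs <;> simp

open Classical in
theorem map_sumS (M : Subgroup G) (v : V) (g : G) :
    ρ g (sumS ρ M v) = ∑ e : G, if e ∈ M then ρ (g * e) v else 0 := by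
  rw [sumS_apply, map_sum]
  refine Finset.sum_congr rfl fun e _ => ?_
  split_ifs
  · rw [map_mul, LinearEquiv.mul_apply]
  · simp

/-- The sum over `M` of any vector is fixed by `M`. -/
theorem sumS_mem (M : Subgroup G) (v : V) : sumS ρ M v ∈ Cfix ρ M := by
  classical
  intro m hm
  rw [map_sumS, sumS_apply]
  have h := Equiv.sum_comp (Equiv.mulLeft m) (fun e : G => if e ∈ M then ρ e v else 0)
  rw [← h]
  refine Finset.sum_congr rfl fun e _ => ?_
  simp only [Equiv.coe_mulLeft, Subgroup.mul_mem_cancel_left M hm]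

/-- On fixed vectors the sum is multiplication by the order. -/
theorem sumS_of_mem {M : Subgroup G} {v : V} (hv : v ∈ Cfix ρ M) :
    sumS ρ M v = (Nat.card M : k) • v := by
  classical
  rw [sumS_apply]
  have h : ∀ e : G, (if e ∈ M then ρ e v else 0) = if e ∈ M then v else 0 := by
    intro e
    split_ifs with he
    · exact hv e he
    · rfl
  simp only [h]
  rw [Finset.sum_ite, Finset.sum_const_zero, add_zero, Finset.sum_const]
  have hc : (Finset.univ.filter (· ∈ M)).card = Nat.card M := by
    rw [Nat.card_eq_fintype_card, Fintype.card_subtype]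
  rw [hc, Nat.cast_smul_eq_nsmul]

/-- An element commuting with `M` passes through the sum. -/
theorem map_sumS_comm {M : Subgroup G} {g : G} (hg : ∀ m ∈ M, g * m = m * g) (v : V) :
    ρ g (sumS ρ M v) = sumS ρ M (ρ g v) := by
  classical
  rw [map_sumS, sumS_apply]
  refine Finset.sum_congr rfl fun e _ => ?_
  split_ifs with he
  · rw [hg e he, map_mul, LinearEquiv.mul_apply]
  · rfl

omit [Fintype G] in
/-- Conjugates of fixed vectors are fixed by conjugates. -/
theorem conj_mem_Cfix {M : Subgroup G} {v : V} (hv : v ∈ Cfix ρ M) (g : G) :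
    ρ g v ∈ Cfix ρ (M.map (MulAut.conj g).toMonoidHom) := by
  intro x hx
  obtain ⟨m, hm, rfl⟩ := Subgroup.mem_map.1 hx
  have h : ρ ((MulAut.conj g).toMonoidHom m) (ρ g v) = ρ g (ρ m v) := by
    rw [← LinearEquiv.mul_apply, ← LinearEquiv.mul_apply, ← map_mul, ← map_mul]
    congr 2
    simp [MulAut.conj_apply]
  rw [h, hv m hm]

end

section identity

variable {G : Type*} [Group G] [Fintype G] {p : ℕ} [Fact p.Prime]

/-- The summation identity: over the subgroups of order `p` of a subgroup `E` of exponent `p`, each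
nonidentity element of `E` is counted exactly once. -/
theorem sum_identity
    (E : Subgroup G) (hEe : ∀ e ∈ E, e ^ p = 1)
    (𝓜 : Finset (Subgroup G)) (h𝓜 : ∀ M, M ∈ 𝓜 ↔ M ≤ E ∧ Nat.card M = p)
    {A : Type*} [AddCommMonoid A] (f : G → A) :
    open Classical in
    (∑ M ∈ 𝓜, ∑ e : G, if e ∈ M then f e else 0) + f 1 =
      𝓜.card • f 1 + ∑ e : G, if e ∈ E then f e else 0 := by
  classical
  have hp : p.Prime := Fact.out
  rw [Finset.sum_comm]
  set g : G → A := fun e => ∑ M ∈ 𝓜, if e ∈ M then f e else 0 with hg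
  set h : G → A := fun e => if e ∈ E then f e else 0 with hh
  have hg1 : g 1 = 𝓜.card • f 1 := by
    simp only [hg, Subgroup.one_mem, if_true, Finset.sum_const]
  have hh1 : h 1 = f 1 := by simp [hh, Subgroup.one_mem]
  have hgh : ∀ e : G, e ≠ 1 → g e = h e := by
    intro e he
    by_cases heE : e ∈ E
    · simp only [hh, heE, if_true]
      have hord : orderOf e = p := orderOf_eq_prime (hEe e heE) he
      have hZ : Subgroup.zpowers e ∈ 𝓜 := by
        rw [h𝓜]
        refine ⟨?_, by rw [Nat.card_zpowers, hord]⟩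
        rw [Subgroup.zpowers_le]
        exact heE
      simp only [hg]
      rw [Finset.sum_eq_single (Subgroup.zpowers e)]
      · rw [if_pos (Subgroup.mem_zpowers e)]
      · intro M hM hne
        rw [if_neg]
        intro heM
        apply hne
        have hle : Subgroup.zpowers e ≤ M := by
          rw [Subgroup.zpowers_le]; exact heM
        refine (Subgroup.eq_of_le_of_card_ge hle ?_).symm
        rw [Nat.card_zpowers, hord, ((h𝓜 M).1 hM).2]
      · intro hn
        exact absurd hZ hn
    · simp only [hh, heE, if_false, hg]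
      refine Finset.sum_eq_zero fun M hM => ?_
      rw [if_neg]
      intro heM
      exact heE (((h𝓜 M).1 hM).1 heM)
  have h1 : ∑ e : G, g e = g 1 + ∑ e ∈ Finset.univ.erase (1 : G), g e :=
    (Finset.add_sum_erase _ _ (Finset.mem_univ _)).symm
  have h2 : ∑ e : G, h e = h 1 + ∑ e ∈ Finset.univ.erase (1 : G), h e :=
    (Finset.add_sum_erase _ _ (Finset.mem_univ _)).symm
  have h3 : ∑ e ∈ Finset.univ.erase (1 : G), g e = ∑ e ∈ Finset.univ.erase (1 : G), h e :=
    Finset.sum_congr rfl fun e he => hgh e (Finset.ne_of_mem_erase he)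
  show ∑ e : G, g e + f 1 = 𝓜.card • f 1 + ∑ e : G, h e
  rw [h1, h2, h3, hg1, hh1]
  abel

end identity

end Cfsg.Agent.Lib.Recog
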