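import Cfsg.Agent.S3380

/-!
# Half-transitive linear `p`-groups: basic tools

Orbit counting, Maschke's complement, arithmetic with powers of two.
-/

set_option autoImplicit false

namespace Cfsg.Agent.Lib.Recog

section arith

/-- `q^e + 1 = 2^b` forces `e = 1` (for `q` odd, `e ≥ 1`). -/
theorem arith_pow_add_one {q e b : ℕ} (hq : Odd q) (hq3 : 3 ≤ q) (he : 1 ≤ e) (h : q ^ e + 1 = 2 ^ b) : e = 1 := by
  rcases Nat.even_or_odd' e with ⟨f, rfl | rfl⟩
  · exfalso
    have hf : 1 ≤ f := by omega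
    have h8 : q ^ (2 * f) % 8 = 1 := by
      obtain ⟨k, rfl⟩ := hq
      rw [pow_mul]
      have h1 : (2 * k + 1) ^ 2 % 8 = 1 := by
        have : (2 * k + 1) ^ 2 = 4 * (k * (k + 1)) + 1 := by ring
        rw [this]
        obtain ⟨l, hl⟩ := Nat.even_mul_succ_self k
        rw [hl]
        omega
      rw [Nat.pow_mod, h1]
      simp
    have hb : b = 1 := by
      rcases b with _ | _ | _ | b
      · simp at h
        omega
      · rfl
      · norm_num at h
        omega
      · exfalso
        have : 2 ^ (b + 1 + 1 + 1) = 8 * 2 ^ b := by ring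
        rw [this] at h
        omega
    subst hb
    have h2 : 3 ^ (2 * f) ≤ q ^ (2 * f) := Nat.pow_le_pow_left hq3 _
    have h3 : 1 < 3 ^ (2 * f) := Nat.one_lt_pow (by omega) (by norm_num)
    omega
  · -- odd exponent
    have hd : q + 1 ∣ q ^ (2 * f + 1) + 1 := by
      have := Odd.nat_add_dvd_pow_add_pow q 1 (n := 2 * f + 1) ⟨f, rfl⟩
      simpa using this
    obtain ⟨s, hs⟩ : q ^ 2 - 1 ∣ (q ^ 2) ^ f - 1 := by
      have := Nat.sub_dvd_pow_sub_pow (q ^ 2) 1 f
      simpa using this
    have hq2 : 1 ≤ q ^ 2 := Nat.one_le_pow _ _ (by omega)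
    have hqf : 1 ≤ (q ^ 2) ^ f := Nat.one_le_pow _ _ (by omega)
    have e1 : (q ^ 2) ^ f = 1 + (q ^ 2 - 1) * s := by omega
    obtain ⟨r, hr⟩ : ∃ r, q = r + 1 := ⟨q - 1, by omega⟩
    have e2 : q ^ 2 - 1 = (q + 1) * r := by
      rw [hr]
      have : (r + 1) ^ 2 = (r + 1 + 1) * r + 1 := by ring
      omega
    have e3 : q ^ (2 * f + 1) + 1 = (q + 1) * (1 + q * r * s) := by
      rw [pow_succ, pow_mul, e1, e2]
      ring
    rw [e3] at h
    have hc : (1 + q * r * s) ∣ 2 ^ b := ⟨q + 1, by rw [← h]; ring⟩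
    have hodd : Odd (1 + q * r * s) := by
      have hr2 : Even r := by
        obtain ⟨k, hk⟩ := hq
        exact ⟨k, by omega⟩
      have : Even (q * r * s) := by
        obtain ⟨k, hk⟩ := hr2
        exact ⟨q * k * s, by rw [hk]; ring⟩
      exact Even.one_add this
    have hc1 : 1 + q * r * s = 1 := by
      have hco : Nat.Coprime (1 + q * r * s) (2 ^ b) :=
        Nat.Coprime.pow_right _ (Nat.coprime_two_right.2 hodd)
      exact Nat.Coprime.eq_one_of_dvd hco hc
    have hs0 : s = 0 := by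
      have h1 : q * r * s = 0 := by omega
      have hq0 : q ≠ 0 := by omega
      have hr0 : r ≠ 0 := by omega
      simpa [hq0, hr0] using h1
    rw [hs0, mul_zero, add_zero, ← pow_mul] at e1
    have hf : f = 0 := by
      by_contra hf
      have h3 : 3 ^ (2 * f) ≤ q ^ (2 * f) := Nat.pow_le_pow_left hq3 _
      have h4 : 1 < 3 ^ (2 * f) := Nat.one_lt_pow (by omega) (by norm_num)
      omega
    omega

/-- `q^e = 2^k + 1` forces `e = 1`, or `q = 3` and `e = 2` (`q` an odd prime, `e ≥ 1`). -/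
theorem arith_pow_sub_one {q e k : ℕ} (hq : q.Prime) (hq2 : q ≠ 2) (he : 1 ≤ e) (h : q ^ e = 2 ^ k + 1) :
    e = 1 ∨ (q = 3 ∧ e = 2) := by
  have hqodd : Odd q := hq.odd_of_ne_two hq2
  have hq3 : 3 ≤ q := by
    have := hq.two_le
    omega
  rcases Nat.even_or_odd' e with ⟨f, rfl | rfl⟩
  · right
    have hf : 1 ≤ f := by omega
    have h1 : 1 < q ^ f := Nat.one_lt_pow (by omega) (by omega)
    obtain ⟨u, hu⟩ : ∃ u, q ^ f = u + 1 := ⟨q ^ f - 1, by omega⟩
    have h2 : u * (u + 2) = 2 ^ k := by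
      have e1 : q ^ (2 * f) = (u + 1) ^ 2 := by rw [mul_comm, pow_mul, hu]
      rw [e1] at h
      nlinarith
    have hu0 : 0 < u := by omega
    have h3 : u ∣ 2 ^ k := ⟨u + 2, h2.symm⟩
    have h4 : u + 2 ∣ 2 ^ k := ⟨u, by rw [← h2]; ring⟩
    obtain ⟨a, _, ha⟩ := (Nat.dvd_prime_pow Nat.prime_two).1 h3
    obtain ⟨b, _, hb⟩ := (Nat.dvd_prime_pow Nat.prime_two).1 h4
    -- two powers of two differing by two
    have hu2 : u = 2 := by
      have hab : 2 ^ b = 2 ^ a + 2 := by omega
      rcases a with _ | _ | a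
      · exfalso
        simp at hab
        have : b = 0 ∨ 0 < b := by omega
        rcases this with rfl | hb0
        · simp at hab
        · have : 2 ∣ 2 ^ b := dvd_pow_self 2 (by omega)
          omega
      · simpa using ha
      · exfalso
        have hlt : a + 1 + 1 < b := by
          by_contra hn
          have : 2 ^ b ≤ 2 ^ (a + 1 + 1) := Nat.pow_le_pow_right (by norm_num) (by omega)
          omega
        obtain ⟨c, rfl⟩ : ∃ c, b = a + 1 + 1 + (c + 1) := ⟨b - (a + 1 + 1) - 1, by omega⟩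
        have e1 : 2 ^ (a + 1 + 1 + (c + 1)) = 4 * 2 ^ a * (2 * 2 ^ c) := by ring
        have e2 : 2 ^ (a + 1 + 1) = 4 * 2 ^ a := by ring
        rw [e1, e2] at hab
        have h5 : 4 ∣ 4 * 2 ^ a * (2 * 2 ^ c) := ⟨2 ^ a * (2 * 2 ^ c), by ring⟩
        omega
    have hq3f : q ^ f = 3 := by omega
    have hqq : q = 3 := by
      have h5 : q ∣ 3 := by
        rw [← hq3f]
        exact dvd_pow_self q (by omega)
      exact (Nat.prime_dvd_prime_iff_eq hq Nat.prime_three).1 h5
    subst hqq
    have hf1 : f = 1 := by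
      by_contra hne
      have : 3 ^ 2 ≤ 3 ^ f := Nat.pow_le_pow_right (by norm_num) (by omega)
      omega
    omega
  · left
    by_contra hne
    have hf : 1 ≤ f := by
      by_contra hf
      have : f = 0 := by omega
      subst this
      exact hne rfl
    -- factorization
    obtain ⟨r, hr⟩ : ∃ r, q = r + 1 := ⟨q - 1, by omega⟩
    have hg := geom_sum_mul_add r (2 * f + 1)
    rw [← hr, h] at hg
    set c := ∑ i ∈ Finset.range (2 * f + 1), q ^ i with hc
    have h1 : c * r = 2 ^ k := by omega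
    have hodd : Odd c := by
      rw [hc, Finset.odd_sum_iff_odd_card_odd]
      have : (Finset.range (2 * f + 1)).filter (fun i => Odd (q ^ i)) = Finset.range (2 * f + 1) := by
        apply Finset.filter_true_of_mem
        intro i _
        exact hqodd.pow
      rw [this, Finset.card_range]
      exact ⟨f, rfl⟩
    have hd : c ∣ 2 ^ k := ⟨r, h1.symm⟩
    have hc1 : c = 1 := by
      have hco : Nat.Coprime c (2 ^ k) := Nat.Coprime.pow_right _ (Nat.coprime_two_right.2 hodd)
      exact Nat.Coprime.eq_one_of_dvd hco hd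
    have hge : q ^ 1 + q ^ 0 ≤ c := by
      have hs : ({0, 1} : Finset ℕ) ⊆ Finset.range (2 * f + 1) := by
        intro i hi
        simp only [Finset.mem_insert, Finset.mem_singleton] at hi
        rw [Finset.mem_range]
        omega
      have := Finset.sum_le_sum_of_subset (f := fun i => q ^ i) hs
      rw [Finset.sum_pair (by norm_num : (0 : ℕ) ≠ 1)] at this
      simp only [pow_one, pow_zero] at this ⊢
      omega
    simp only [pow_one, pow_zero] at hge
    omega

end arith

section orbit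

variable {k V K : Type*} [Field k] [AddCommGroup V] [Module k V] [Group K] [Finite K]
variable (ρ : K →* (V ≃ₗ[k] V))

/-- Orbit-stabiliser for a linear action, in elementary form. -/
theorem orbit_card_mul (v : V) :
    Nat.card {u : V | ∃ g : K, ρ g v = u} * Nat.card (fixSub ρ v) = Nat.card K := by
  classical
  letI : MulAction K V :=
    { smul := fun g v => ρ g v
      one_smul := fun v => by
        show ρ 1 v = v
        simp
      mul_smul := fun a b v => by
        show ρ (a * b) v = ρ a (ρ b v)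
        rw [map_mul, LinearEquiv.mul_apply] }
  have h1 : MulAction.stabilizer K v = fixSub ρ v := by
    ext g
    rfl
  have h2 : MulAction.orbit K v = {u : V | ∃ g : K, ρ g v = u} := by
    ext u
    rfl
  have h3 := MulAction.index_stabilizer K v
  rw [h1, h2] at h3
  rw [Nat.card_coe_set_eq, ← h3, mul_comm]
  exact Subgroup.card_mul_index _

end orbit

section maschke

variable {k V K : Type*} [Field k] [AddCommGroup V] [Module k V] [Group K] [Finite K]
variable (ρ : K →* (V ≃ₗ[k] V))

/-- Maschke's theorem, elementary form. -/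
theorem exists_invariant_compl (hK : (Nat.card K : k) ≠ 0) (W : Submodule k V)
    (hW : ∀ g : K, ∀ w ∈ W, ρ g w ∈ W) :
    ∃ W' : Submodule k V, IsCompl W W' ∧ ∀ g : K, ∀ w ∈ W', ρ g w ∈ W' := by
  classical
  haveI : Fintype K := Fintype.ofFinite K
  obtain ⟨f, hf⟩ := LinearMap.exists_leftInverse_of_injective W.subtype (Submodule.ker_subtype W)
  let π : V →ₗ[k] V := W.subtype ∘ₗ f
  have hπ : ∀ w ∈ W, π w = w := by
    intro w hw
    have := LinearMap.congr_fun hf ⟨w, hw⟩
    show ((f w : W) : V) = w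
    have h2 : f w = ⟨w, hw⟩ := this
    rw [h2]
  have hπW : ∀ v, π v ∈ W := fun v => (f v).2
  let ψ : V →ₗ[k] V := ∑ g : K, ((ρ g : V ≃ₗ[k] V) : V →ₗ[k] V) ∘ₗ π ∘ₗ ((ρ g⁻¹ : V ≃ₗ[k] V) : V →ₗ[k] V)
  have hψapp : ∀ v, ψ v = ∑ g : K, ρ g (π (ρ g⁻¹ v)) := by
    intro v
    simp [ψ, LinearMap.sum_apply]
  have hψW : ∀ v, ψ v ∈ W := by
    intro v
    rw [hψapp]
    exact Submodule.sum_mem _ fun g _ => hW g _ (hπW _)
  have hψw : ∀ w ∈ W, ψ w = (Nat.card K : k) • w := by
    intro w hw
    rw [hψapp]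
    have h1 : ∀ g : K, ρ g (π (ρ g⁻¹ w)) = w := by
      intro g
      rw [hπ _ (hW g⁻¹ w hw), ← LinearEquiv.mul_apply, ← map_mul]
      simp
    simp only [h1]
    rw [Finset.sum_const, Finset.card_univ, Nat.card_eq_fintype_card, Nat.cast_smul_eq_nsmul]
  have hψeq : ∀ (h : K) (v : V), ρ h (ψ v) = ψ (ρ h v) := by
    intro h v
    rw [hψapp, hψapp, map_sum]
    have := Equiv.sum_comp (Equiv.mulLeft h) (fun g : K => ρ g (π (ρ g⁻¹ (ρ h v))))
    rw [← this]
    refine Finset.sum_congr rfl fun g _ => ?_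
    simp only [Equiv.coe_mulLeft]
    rw [map_mul, LinearEquiv.mul_apply]
    congr 2
    rw [← LinearEquiv.mul_apply, ← map_mul]
    simp
  refine ⟨LinearMap.ker ψ, ?_, ?_⟩
  · constructor
    · rw [Submodule.disjoint_def]
      intro x hx hx'
      rw [LinearMap.mem_ker, hψw x hx] at hx'
      exact (smul_eq_zero.1 hx').resolve_left hK
    · rw [codisjoint_iff, eq_top_iff]
      intro v _
      set c := (Nat.card K : k)⁻¹ with hc
      have hcK : c * (Nat.card K : k) = 1 := inv_mul_cancel₀ hK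
      have h1 : v = c • ψ v + (v - c • ψ v) := by abel
      rw [h1]
      refine Submodule.add_mem _ (Submodule.mem_sup_left (W.smul_mem c (hψW v))) (Submodule.mem_sup_right ?_)
      rw [LinearMap.mem_ker, map_sub, map_smul, hψw _ (hψW v), smul_smul, hcK, one_smul, sub_self]
  · intro g w hw
    rw [LinearMap.mem_ker] at hw ⊢
    rw [← hψeq, hw, map_zero]

end maschke

end Cfsg.Agent.Lib.Recog
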