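import Cfsg.Agent.Lib.Recog.HalfBasic

/-!
# Half-transitive linear `p`-groups: semiregularity and irreducibility
-/

set_option autoImplicit false

namespace Cfsg.Agent.Lib.Recog

open Cfsg.Agent.S3380

section
variable {q : ℕ} [Fact q.Prime] {V : Type*} [AddCommGroup V] [Module (ZMod q) V] [Finite V] [Nontrivial V]
  {G : Type*} [Group G] [Finite G] {p : ℕ} [Fact p.Prime]
  (ρ : G →* (V ≃ₗ[ZMod q] V))

omit [Module (ZMod q) V] [Finite V] in
/-- A central element of order `p` in a nontrivial `p`-group. -/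
theorem exists_central_prime [Nontrivial G] (hG : IsPGroup p G) :
    ∃ z : G, orderOf z = p ∧ ∀ g : G, g * z = z * g := by
  haveI := hG.center_nontrivial
  have hc := hG.to_subgroup (Subgroup.center G)
  have hd : p ∣ Nat.card (Subgroup.center G) := by
    obtain ⟨k, hk⟩ := IsPGroup.iff_card.1 hc
    have h1 : 1 < Nat.card (Subgroup.center G) := Finite.one_lt_card
    rw [hk] at h1 ⊢
    have : k ≠ 0 := by
      rintro rfl
      simp at h1
    exact dvd_pow_self p this
  obtain ⟨z, hz⟩ := exists_prime_orderOf_dvd_card' p hd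
  refine ⟨z, ?_, ?_⟩
  · rw [← hz]
    exact Subgroup.orderOf_coe z
  · intro g
    exact (Subgroup.mem_center_iff.1 z.2 g)

/-- A subgroup `E(p²)` has a subgroup of order `p` with a nonzero fixed vector. -/
theorem exists_fix_of_sq (hpq : (p : ZMod q) ≠ 0) (E : Subgroup G) (hEe : ∀ e ∈ E, e ^ p = 1)
    (hEcard : Nat.card E = p ^ 2) : ∃ M : Subgroup G, M ≤ E ∧ Nat.card M = p ∧ Cfix ρ M ≠ ⊥ := by
  classical
  haveI : Fintype G := Fintype.ofFinite G
  have hpp : p.Prime := Fact.out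
  have hp1 : 1 < p := hpp.one_lt
  let 𝓜 : Finset (Subgroup G) := (Set.toFinite {M : Subgroup G | M ≤ E ∧ Nat.card M = p}).toFinset
  have h𝓜 : ∀ M, M ∈ 𝓜 ↔ M ≤ E ∧ Nat.card M = p := by
    intro M
    simp [𝓜]
  have hcount : 𝓜.card = p + 1 := by
    have h1 := sum_identity (p := p) E hEe 𝓜 h𝓜 (A := ℕ) (fun _ => 1)
    have hfilter : ∀ M : Subgroup G, (∑ e : G, if e ∈ M then 1 else 0) = Nat.card M := by
      intro M
      rw [Finset.sum_boole, Nat.card_eq_fintype_card, Fintype.card_subtype]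
      simp
    simp only [hfilter] at h1
    have h2 : ∑ M ∈ 𝓜, Nat.card M = 𝓜.card * p := by
      rw [Finset.sum_congr rfl (fun M hM => ((h𝓜 M).1 hM).2), Finset.sum_const, smul_eq_mul]
    rw [h2, hEcard] at h1
    simp only [smul_eq_mul, mul_one] at h1
    have h3 : 𝓜.card * (p - 1) = (p + 1) * (p - 1) := by
      obtain ⟨r, rfl⟩ : ∃ r, p = r + 1 := ⟨p - 1, by omega⟩
      simp only [Nat.add_sub_cancel]
      nlinarith
    exact Nat.eq_of_mul_eq_mul_right (by omega) h3
  by_contra hcon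
  push Not at hcon
  have hcon' : ∀ M ∈ 𝓜, Cfix ρ M = ⊥ := by
    intro M hM
    obtain ⟨h1, h2⟩ := (h𝓜 M).1 hM
    exact hcon M h1 h2
  obtain ⟨v, hv⟩ := exists_ne (0 : V)
  have h0 : ∀ M ∈ 𝓜, sumS ρ M v = 0 := by
    intro M hM
    have := sumS_mem ρ M v
    rw [hcon' M hM] at this
    exact (Submodule.mem_bot _).1 this
  have hne : 𝓜.Nonempty := by
    rw [← Finset.card_pos, hcount]
    omega
  obtain ⟨M, hM⟩ := hne
  have hE0 : sumS ρ E v = 0 := by
    have h1 : sumS ρ E v ∈ Cfix ρ M := fun m hm => sumS_mem ρ E v m (((h𝓜 M).1 hM).1 hm)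
    rw [hcon' M hM] at h1
    exact (Submodule.mem_bot _).1 h1
  have h1 := sum_identity (p := p) E hEe 𝓜 h𝓜 (A := V) (fun e => ρ e v)
  simp only [← sumS_apply] at h1
  rw [hE0, add_zero, hcount, map_one, Finset.sum_eq_zero h0, zero_add] at h1
  simp only [LinearEquiv.coe_one, id_eq] at h1
  have h2 : (p + 1) • v = p • v + v := by rw [add_smul, one_smul]
  rw [h2] at h1
  have h3 : p • v = 0 := by
    have := add_eq_right.1 h1.symm
    exact this
  rw [← Nat.cast_smul_eq_nsmul (ZMod q)] at h3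
  exact hv ((smul_eq_zero.1 h3).resolve_left hpq)

/-- Semiregular `p`-groups (`p ≠ q`) are cyclic or generalized quaternion. -/
theorem cyclic_or_quat_of_semiregular (hG : IsPGroup p G) (hpq : (p : ZMod q) ≠ 0)
    (hsr : ∀ v : V, v ≠ 0 → ∀ g : G, ρ g v = v → g = 1) :
    IsCyclic G ∨ ∃ n : ℕ, Nonempty (G ≃* QuaternionGroup n) := by
  classical
  have hpp : p.Prime := Fact.out
  by_cases hnt : Nontrivial G
  · have hab : ∀ B : Subgroup G, IsMulCommutative B → IsCyclic B := by
      intro B hB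
      by_contra hnc
      have hnc' : ¬ IsCyclic (⊤ : Subgroup B) := fun h => hnc (isCyclic_of_surjective (⊤ : Subgroup B).subtype (by
        intro x
        exact ⟨⟨x, trivial⟩, rfl⟩))
      have hBtop : IsMulCommutative (⊤ : Subgroup B) := by
        refine ⟨⟨?_⟩⟩
        rintro ⟨x, _⟩ ⟨y, _⟩
        apply Subtype.ext
        exact hB.is_comm.comm x y
      obtain ⟨E', _, _, hEe', hEc'⟩ := exists_normal_sq_of_abelian (hG.to_subgroup B) ⊤ inferInstance hBtop hnc'
      let E := E'.map B.subtype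
      have hEcard : Nat.card E = p ^ 2 := by
        rw [← hEc']
        exact Nat.card_congr (Subgroup.equivMapOfInjective E' _ B.subtype_injective).toEquiv.symm
      have hEe : ∀ e ∈ E, e ^ p = 1 := by
        rintro _ ⟨x, hx, rfl⟩
        have := congrArg Subtype.val (hEe' x hx)
        simpa using this
      obtain ⟨M, _, hMc, hM⟩ := exists_fix_of_sq ρ hpq E hEe hEcard
      obtain ⟨v, hv, hv0⟩ := Submodule.exists_mem_ne_zero_of_ne_bot hM
      have hMbot : M = ⊥ := by
        rw [eq_bot_iff]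
        intro m hm
        rw [Subgroup.mem_bot]
        exact hsr v hv0 m (hv m hm)
      rw [hMbot] at hMc
      simp at hMc
      have := hpp.one_lt
      omega
    have hU := uniqueP_of_forall_abelian hG (exists_central_prime hG) hab
    by_cases hp2 : p = 2
    · subst hp2
      rcases Cfsg.Agent.Lib.OddLocal.cyclic_or_quaternion hG hU with h | ⟨n, h⟩
      · exact Or.inl h
      · exact Or.inr ⟨_, h⟩
    · exact Or.inl (Cfsg.Agent.Lib.OddLocal.isCyclic_of_uniqueP_odd hp2 _ G rfl hG hU)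
  · left
    rw [not_nontrivial_iff_subsingleton] at hnt
    infer_instance

/-- If `G` is not semiregular, the equal-orbit condition forces irreducibility. -/
theorem irreducible_of_half (hG : IsPGroup p G) (hρ : Function.Injective ρ) (hpq : (p : ZMod q) ≠ 0)
    (hstab : ∀ v w : V, v ≠ 0 → w ≠ 0 → Nat.card (fixSub ρ v) = Nat.card (fixSub ρ w))
    (hnsr : ∃ v : V, v ≠ 0 ∧ ∃ g : G, g ≠ 1 ∧ ρ g v = v) :
    ∀ W : Submodule (ZMod q) V, (∀ g : G, ∀ w ∈ W, ρ g w ∈ W) → W = ⊥ ∨ W = ⊤ := by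
  classical
  intro W hW
  by_contra hcon
  push Not at hcon
  obtain ⟨hW0, hW1⟩ := hcon
  have hK : (Nat.card G : ZMod q) ≠ 0 := by
    obtain ⟨a, ha⟩ := IsPGroup.iff_card.1 hG
    rw [ha]
    push_cast
    exact pow_ne_zero _ hpq
  obtain ⟨W', hC, hW'⟩ := exists_invariant_compl ρ hK W hW
  have hW'0 : W' ≠ ⊥ := by
    rintro rfl
    exact hW1 (by simpa using hC.sup_eq_top)
  have hstabeq : ∀ a ∈ W, ∀ b ∈ W', a ≠ 0 → b ≠ 0 → fixSub ρ a = fixSub ρ b := by
    intro a ha b hb ha0 hb0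
    have hdisj := Submodule.disjoint_def.1 hC.disjoint
    have hab0 : a + b ≠ 0 := by
      intro h
      have h1 : a = -b := eq_neg_of_add_eq_zero_left h
      have h2 : a ∈ W' := by rw [h1]; exact W'.neg_mem hb
      exact ha0 (hdisj a ha h2)
    have hsplit : ∀ g, g ∈ fixSub ρ (a + b) → ρ g a = a ∧ ρ g b = b := by
      intro g hg
      rw [mem_fixSub, map_add] at hg
      have h1 : ρ g a - a = b - ρ g b := by
        rw [sub_eq_sub_iff_add_eq_add, hg, add_comm]
      have h2 : ρ g a - a ∈ W := W.sub_mem (hW g a ha) ha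
      have h3 : ρ g a - a ∈ W' := by
        rw [h1]
        exact W'.sub_mem hb (hW' g b hb)
      have h4 := hdisj _ h2 h3
      have h5 : ρ g a = a := sub_eq_zero.1 h4
      refine ⟨h5, ?_⟩
      rw [h5] at hg
      exact add_left_cancel hg
    have h1 : fixSub ρ (a + b) = fixSub ρ a :=
      Subgroup.eq_of_le_of_card_ge (fun g hg => (hsplit g hg).1) (hstab _ _ ha0 hab0).le
    have h2 : fixSub ρ (a + b) = fixSub ρ b :=
      Subgroup.eq_of_le_of_card_ge (fun g hg => (hsplit g hg).2) (hstab _ _ hb0 hab0).le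
    rw [← h1, h2]
  obtain ⟨a₀, ha₀, ha₀0⟩ := Submodule.exists_mem_ne_zero_of_ne_bot hW0
  obtain ⟨b₀, hb₀, hb₀0⟩ := Submodule.exists_mem_ne_zero_of_ne_bot hW'0
  have hD : ∀ g ∈ fixSub ρ a₀, g = 1 := by
    intro g hg
    apply hρ
    rw [map_one]
    ext v
    have hv : v ∈ W ⊔ W' := by rw [hC.sup_eq_top]; trivial
    obtain ⟨a, ha, b, hb, rfl⟩ := Submodule.mem_sup.1 hv
    have hfa : ρ g a = a := by
      by_cases ha0 : a = 0
      · rw [ha0]; exact map_zero _
      · have h1 := hstabeq a ha b₀ hb₀ ha0 hb₀0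
        have h2 := hstabeq a₀ ha₀ b₀ hb₀ ha₀0 hb₀0
        have : g ∈ fixSub ρ a := by rw [h1, ← h2]; exact hg
        exact this
    have hfb : ρ g b = b := by
      by_cases hb0 : b = 0
      · rw [hb0]; exact map_zero _
      · have h1 := hstabeq a₀ ha₀ b hb ha₀0 hb0
        have : g ∈ fixSub ρ b := by rw [← h1]; exact hg
        exact this
    rw [map_add, hfa, hfb]
    simp
  obtain ⟨v, hv0, g, hg1, hg⟩ := hnsr
  have hcard1 : Nat.card (fixSub ρ a₀) = 1 := by
    rw [Nat.card_eq_one_iff_unique]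
    refine ⟨⟨fun x y => Subtype.ext ((hD x x.2).trans (hD y y.2).symm)⟩, ⟨1⟩⟩
  have hcard2 := hstab v a₀ hv0 ha₀0
  rw [hcard1, Nat.card_eq_one_iff_unique] at hcard2
  have h3 := hcard2.1.elim (⟨g, hg⟩ : fixSub ρ v) 1
  exact hg1 (congrArg Subtype.val h3)

/-- With unique minimal subgroup: a stabilizer containing a nontrivial element contains the central
subgroup, contradicting irreducibility. -/
theorem not_uniqueP_of_irreducible (hG : IsPGroup p G) (hρ : Function.Injective ρ)
    (hirr : ∀ W : Submodule (ZMod q) V, (∀ g : G, ∀ w ∈ W, ρ g w ∈ W) → W = ⊥ ∨ W = ⊤)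
    (hnsr : ∃ v : V, v ≠ 0 ∧ ∃ g : G, g ≠ 1 ∧ ρ g v = v)
    (hU : Cfsg.Agent.Lib.OddLocal.UniqueP p G) : False := by
  classical
  have hpp : p.Prime := Fact.out
  obtain ⟨v, hv0, g, hg1, hg⟩ := hnsr
  haveI : Nontrivial G := ⟨⟨g, 1, hg1⟩⟩
  obtain ⟨z, hzo, hzc⟩ := exists_central_prime hG
  have hz1 : z ≠ 1 := by
    rintro rfl
    rw [orderOf_one] at hzo
    have := hpp.one_lt
    omega
  -- a power of `g` of order `p`
  obtain ⟨k, hk⟩ := IsPGroup.iff_orderOf.1 hG g
  have hk0 : k ≠ 0 := by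
    rintro rfl
    rw [pow_zero, orderOf_eq_one_iff] at hk
    exact hg1 hk
  obtain ⟨k', rfl⟩ := Nat.exists_eq_succ_of_ne_zero hk0
  let t := g ^ (p ^ k')
  have htfix : ρ t v = v := by
    have h1 : t ∈ fixSub ρ v := Subgroup.pow_mem _ hg _
    exact h1
  have hto : orderOf t = p := by
    apply orderOf_eq_prime
    · show (g ^ (p ^ k')) ^ p = 1
      rw [← pow_mul, ← pow_succ, ← hk, pow_orderOf_eq_one]
    · apply pow_ne_one_of_lt_orderOf
      · exact (pow_pos hpp.pos _).ne'
      · rw [hk, pow_succ]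
        exact lt_mul_of_one_lt_right (pow_pos hpp.pos _) hpp.one_lt
  have hz : Subgroup.zpowers t = Subgroup.zpowers z :=
    hU _ _ (by rw [Nat.card_zpowers, hto]) (by rw [Nat.card_zpowers, hzo])
  have hzfix : ρ z v = v := by
    have h1 : z ∈ Subgroup.zpowers t := by rw [hz]; exact Subgroup.mem_zpowers z
    have h2 : Subgroup.zpowers t ≤ fixSub ρ v := by
      rw [Subgroup.zpowers_le]
      exact htfix
    exact h2 h1
  have hinv : ∀ g : G, ∀ w ∈ Cfix ρ (Subgroup.zpowers z), ρ g w ∈ Cfix ρ (Subgroup.zpowers z) := by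
    intro g w hw m hm
    obtain ⟨i, rfl⟩ := Subgroup.mem_zpowers_iff.1 hm
    have h1 : z ^ i * g = g * z ^ i := (Commute.zpow_right (show Commute g z from hzc g) i).symm.eq
    rw [← LinearEquiv.mul_apply, ← map_mul, h1, map_mul, LinearEquiv.mul_apply, hw _ hm]
  rcases hirr _ hinv with h | h
  · have : v ∈ Cfix ρ (Subgroup.zpowers z) := by
      rw [mem_Cfix_iff_le, Subgroup.zpowers_le]
      exact hzfix
    rw [h] at this
    exact hv0 ((Submodule.mem_bot _).1 this)
  · apply hz1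
    apply hρ
    rw [map_one]
    ext x
    have : x ∈ Cfix ρ (Subgroup.zpowers z) := by rw [h]; trivial
    simpa using this z (Subgroup.mem_zpowers z)

end

end Cfsg.Agent.Lib.Recog
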