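import Cfsg.Agent.Lib.Recog.HalfCore

/-!
# Half-transitive linear `2`-groups with a cyclic subgroup of index two
-/

set_option autoImplicit false

namespace Cfsg.Agent.Lib.Recog

open Subgroup

section
variable {q : ℕ} [Fact q.Prime] {V : Type*} [AddCommGroup V] [Module (ZMod q) V] [Finite V] [Nontrivial V]
  {G : Type*} [Group G] [Finite G]
  (ρ : G →* (V ≃ₗ[ZMod q] V))

/-- Counting lemma: in a group with a cyclic subgroup of index two acting with all stabilizers nontrivial,
the fixed spaces of the involutions outside the cyclic subgroup partition `V`. -/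
theorem ds_count (hq2 : (2 : ZMod q) ≠ 0) (hG : IsPGroup 2 G) (hρ : Function.Injective ρ)
    (hirr : ∀ W : Submodule (ZMod q) V, (∀ g : G, ∀ w ∈ W, ρ g w ∈ W) → W = ⊥ ∨ W = ⊤)
    (hnt : ∀ v : V, v ≠ 0 → ∃ g : G, g ≠ 1 ∧ ρ g v = v)
    (x : G) {n : ℕ} (hn : 3 ≤ n) (hx : orderOf x = 2 ^ n)
    (hindex : (zpowers x).index = 2)
    (r : ℕ) (hr : 2 ^ (n - 1) ∣ r + 1) (hconj : ∀ g : G, g ∉ zpowers x → g * x * g⁻¹ = x ^ r)
    (I : Finset G) (hI : ∀ y, y ∈ I ↔ y * y = 1 ∧ y ∉ zpowers x) :
    ∃ e : ℕ, 1 ≤ e ∧ Nat.card V = (q ^ e) ^ 2 ∧ I.card = q ^ e + 1 := by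
  classical
  haveI : Fintype V := Fintype.ofFinite V
  obtain ⟨m, rfl⟩ : ∃ m, n = m + 3 := ⟨n - 3, by omega⟩
  have hxo : orderOf x = 8 * 2 ^ m := by rw [hx, pow_add]; ring
  let z := x ^ (4 * 2 ^ m)
  let w := x ^ (2 * 2 ^ m)
  have hs1 : 1 ≤ 2 ^ m := Nat.one_le_two_pow
  have hww : w * w = z := by
    show x ^ (2 * 2 ^ m) * x ^ (2 * 2 ^ m) = x ^ (4 * 2 ^ m)
    rw [← pow_add]
    congr 1
    ring
  have hzz : z * z = 1 := by
    show x ^ (4 * 2 ^ m) * x ^ (4 * 2 ^ m) = 1
    rw [← pow_add, ← orderOf_dvd_iff_pow_eq_one, hxo]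
    exact ⟨1, by ring⟩
  have hz1 : z ≠ 1 := by
    apply pow_ne_one_of_lt_orderOf (by omega)
    rw [hxo]
    omega
  have hzA : z ∈ zpowers x := Subgroup.pow_mem _ (mem_zpowers x) _
  obtain ⟨s, hs⟩ := hr
  have hs' : r + 1 = 4 * 2 ^ m * s := by
    rw [hs]
    have : m + 3 - 1 = m + 2 := by omega
    rw [this, pow_add]
    ring
  -- `z` is central
  have hzc : ∀ g : G, g * z * g⁻¹ = z := by
    intro g
    by_cases hg : g ∈ zpowers x
    · obtain ⟨i, rfl⟩ := mem_zpowers_iff.1 hg
      have : Commute (x ^ i) z := (Commute.pow_right (Commute.refl x) _).zpow_left i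
      rw [this.eq]
      group
    · show g * x ^ (4 * 2 ^ m) * g⁻¹ = x ^ (4 * 2 ^ m)
      rw [← conj_pow, hconj g hg, ← pow_mul, pow_eq_pow_iff_modEq, hxo]
      have hrodd : Odd r := by
        by_contra hev
        rw [Nat.not_odd_iff_even] at hev
        have h1 : Even (r + 1) := by
          rw [hs']
          exact ⟨2 * 2 ^ m * s, by ring⟩
        have := (Nat.even_add_one.1 h1)
        exact this hev
      obtain ⟨u, rfl⟩ := hrodd
      have e : (2 * u + 1) * (4 * 2 ^ m) = 8 * 2 ^ m * u + 4 * 2 ^ m := by ring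
      rw [e]
      simp [Nat.ModEq]
  have hyw : ∀ g : G, g ∉ zpowers x → g * w * g⁻¹ = w⁻¹ := by
    intro g hg
    show g * x ^ (2 * 2 ^ m) * g⁻¹ = (x ^ (2 * 2 ^ m))⁻¹
    rw [← conj_pow, hconj g hg]
    apply eq_inv_of_mul_eq_one_left
    rw [← pow_mul, ← pow_add, ← orderOf_dvd_iff_pow_eq_one, hxo]
    have e : r * (2 * 2 ^ m) + 2 * 2 ^ m = (r + 1) * (2 * 2 ^ m) := by ring
    rw [e, hs']
    exact ⟨2 ^ m * s, by ring⟩
  -- `z` acts fixed-point-freely
  have hzfree : ∀ v : V, ρ z v = v → v = 0 := by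
    have hinv : ∀ g : G, ∀ u ∈ Cfix ρ (zpowers z), ρ g u ∈ Cfix ρ (zpowers z) := by
      intro g u hu t ht
      obtain ⟨i, rfl⟩ := mem_zpowers_iff.1 ht
      have hzg : z * g = g * z := by
        have := hzc g
        calc z * g = (g * z * g⁻¹) * g := by rw [this]
          _ = g * z := by group
      have h1 : z ^ i * g = g * z ^ i := (Commute.zpow_left (show Commute z g from hzg) i).eq
      rw [← LinearEquiv.mul_apply, ← map_mul, h1, map_mul, LinearEquiv.mul_apply, hu _ ht]
    rcases hirr _ hinv with h | h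
    · intro v hv
      have : v ∈ Cfix ρ (zpowers z) := by
        rw [mem_Cfix_iff_le, zpowers_le]
        exact hv
      rw [h] at this
      exact (Submodule.mem_bot _).1 this
    · exfalso
      apply hz1
      apply hρ
      rw [map_one]
      ext v
      have : v ∈ Cfix ρ (zpowers z) := by rw [h]; trivial
      simpa using this z (mem_zpowers z)
  have hzneg : ∀ v : V, ρ z v = -v := by
    intro v
    have h1 : ρ z (v + ρ z v) = v + ρ z v := by
      rw [map_add, ← LinearEquiv.mul_apply, ← map_mul, hzz, map_one]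
      simp [add_comm]
    have h2 := hzfree _ h1
    exact eq_neg_of_add_eq_zero_right h2
  -- stabilizers meet the cyclic subgroup trivially
  have hAfree : ∀ v : V, v ≠ 0 → ∀ a ∈ zpowers x, ρ a v = v → a = 1 := by
    intro v hv a ha hav
    by_contra ha1
    obtain ⟨k, hk⟩ := IsPGroup.iff_orderOf.1 hG a
    have hk0 : k ≠ 0 := by
      rintro rfl
      rw [pow_zero, orderOf_eq_one_iff] at hk
      exact ha1 hk
    obtain ⟨k', rfl⟩ := Nat.exists_eq_succ_of_ne_zero hk0
    let b := a ^ (2 ^ k')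
    have hbb : b * b = 1 := by
      show a ^ 2 ^ k' * a ^ 2 ^ k' = 1
      rw [← pow_add, ← orderOf_dvd_iff_pow_eq_one, hk, pow_succ]
      exact ⟨1, by ring⟩
    have hb1 : b ≠ 1 := by
      apply pow_ne_one_of_lt_orderOf (by positivity)
      rw [hk, pow_succ]
      have : 0 < 2 ^ k' := by positivity
      omega
    have hbA : b ∈ zpowers x := Subgroup.pow_mem _ ha _
    obtain ⟨i, hi⟩ := (mem_powers_iff_mem_zpowers).2 hbA
    have hbz : b = z := by
      rw [← hi] at hbb hb1 ⊢
      rw [← pow_add, ← orderOf_dvd_iff_pow_eq_one, hxo] at hbb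
      have h1 : 4 * 2 ^ m ∣ i := by
        have e1 : i + i = 2 * i := by ring
        have e2 : 8 * 2 ^ m = 2 * (4 * 2 ^ m) := by ring
        rw [e1, e2] at hbb
        exact Nat.dvd_of_mul_dvd_mul_left (by norm_num) hbb
      obtain ⟨c, rfl⟩ := h1
      rcases Nat.even_or_odd' c with ⟨c', rfl | rfl⟩
      · exfalso
        apply hb1
        rw [← orderOf_dvd_iff_pow_eq_one, hxo]
        exact ⟨c', by ring⟩
      · rw [pow_eq_pow_iff_modEq, hxo]
        have e : 4 * 2 ^ m * (2 * c' + 1) = 8 * 2 ^ m * c' + 4 * 2 ^ m := by ring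
        rw [e]
        simp [Nat.ModEq]
    have hbv : ρ b v = v := by
      have h1 : a ∈ fixSub ρ v := hav
      have h2 : b ∈ fixSub ρ v := Subgroup.pow_mem _ h1 _
      exact h2
    rw [hbz] at hbv
    exact hv (hzfree v hbv)
  -- each nonzero vector is fixed by exactly one element of `I`
  have hex : ∀ v : V, v ≠ 0 → ∃ y ∈ I, ρ y v = v := by
    intro v hv
    obtain ⟨g, hg1, hg⟩ := hnt v hv
    have hgA : g ∉ zpowers x := fun h => hg1 (hAfree v hv g h hg)
    refine ⟨g, (hI g).2 ⟨?_, hgA⟩, hg⟩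
    apply hAfree v hv _ (Subgroup.mul_self_mem_of_index_two hindex g)
    rw [map_mul, LinearEquiv.mul_apply, hg, hg]
  have huniq : ∀ v : V, v ≠ 0 → ∀ y ∈ I, ∀ y' ∈ I, ρ y v = v → ρ y' v = v → y = y' := by
    intro v hv y hy y' hy' h1 h2
    have hyA := ((hI y).1 hy).2
    have hyA' := ((hI y').1 hy').2
    have h3 : y⁻¹ * y' ∈ zpowers x := by
      rw [Subgroup.mul_mem_iff_of_index_two hindex]
      simp only [inv_mem_iff, hyA, hyA']
    have h4 : ρ (y⁻¹ * y') v = v := by
      have h5 : y ∈ fixSub ρ v := h1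
      have h6 : y' ∈ fixSub ρ v := h2
      exact Subgroup.mul_mem _ (Subgroup.inv_mem _ h5) h6
    have h7 := hAfree v hv _ h3 h4
    exact (inv_mul_eq_one.1 h7)
  -- the fixed space of `y`
  let Cy : G → Submodule (ZMod q) V := fun y => Cfix ρ (zpowers y)
  have hCy : ∀ y v, v ∈ Cy y ↔ ρ y v = v := by
    intro y v
    show v ∈ Cfix ρ (zpowers y) ↔ _
    rw [mem_Cfix_iff_le, zpowers_le]
    rfl
  -- the square of the size of `Cy y` is `|V|`
  have hsq : ∀ y ∈ I, Nat.card (Cy y) ^ 2 = Nat.card V := by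
    intro y hy
    obtain ⟨hyy, hyA⟩ := (hI y).1 hy
    have hwy : z * y = w * y * w⁻¹ := by
      have h1 := hyw y hyA
      calc z * y = w * w * y := by rw [hww]
        _ = w * (y * w * y⁻¹)⁻¹ * y := by rw [h1, inv_inv]
        _ = w * y * w⁻¹ := by
          have hyinv : y⁻¹ = y := inv_eq_of_mul_eq_one_left hyy
          group
    have hcardeq : Nat.card (Cy y) = Nat.card (Cy (z * y)) := by
      refine Nat.card_congr ⟨fun v => ⟨ρ w v, ?_⟩, fun u => ⟨ρ w⁻¹ u, ?_⟩, ?_, ?_⟩
      · rw [hCy, hwy, ← LinearEquiv.mul_apply, ← map_mul]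
        have : w * y * w⁻¹ * w = w * y := by group
        rw [this, map_mul, LinearEquiv.mul_apply, (hCy y _).1 v.2]
      · have hu := (hCy _ _).1 u.2
        rw [hCy, ← LinearEquiv.mul_apply, ← map_mul]
        have e : y * w⁻¹ = w⁻¹ * (z * y) := by
          rw [hwy]; group
        rw [e, map_mul, LinearEquiv.mul_apply, hu]
      · intro v
        apply Subtype.ext
        show ρ w⁻¹ (ρ w v) = v
        rw [← LinearEquiv.mul_apply, ← map_mul]
        simp
      · intro u
        apply Subtype.ext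
        show ρ w (ρ w⁻¹ u) = u
        rw [← LinearEquiv.mul_apply, ← map_mul]
        simp
    have hcompl : IsCompl (Cy y) (Cy (z * y)) := by
      constructor
      · rw [Submodule.disjoint_def]
        intro v hv hv'
        rw [hCy] at hv hv'
        rw [map_mul, LinearEquiv.mul_apply, hv] at hv'
        exact hzfree v hv'
      · rw [codisjoint_iff, eq_top_iff]
        intro v _
        let c : ZMod q := (2 : ZMod q)⁻¹
        have hc : c * 2 = 1 := inv_mul_cancel₀ hq2
        have hyyv : ∀ u : V, ρ y (ρ y u) = u := by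
          intro u
          rw [← LinearEquiv.mul_apply, ← map_mul, hyy, map_one]
          rfl
        have h1 : c • (v + ρ y v) ∈ Cy y := by
          rw [hCy, map_smul, map_add, hyyv, add_comm]
        have h2 : c • (v - ρ y v) ∈ Cy (z * y) := by
          rw [hCy, map_smul, map_mul, LinearEquiv.mul_apply, map_sub, hyyv, map_sub, hzneg, hzneg]
          congr 1
          abel
        have h3 : v = c • (v + ρ y v) + c • (v - ρ y v) := by
          rw [← smul_add]
          have : v + ρ y v + (v - ρ y v) = (2 : ZMod q) • v := by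
            rw [two_smul]
            abel
          rw [this, smul_smul, hc, one_smul]
        rw [h3]
        exact Submodule.add_mem_sup h1 h2
    have hcard := Nat.card_congr (Submodule.prodEquivOfIsCompl _ _ hcompl).toEquiv
    rw [Nat.card_prod, ← hcardeq] at hcard
    rw [pow_two, hcard]
  -- the count
  obtain ⟨v₀, hv₀⟩ := exists_ne (0 : V)
  obtain ⟨y₀, hy₀, _⟩ := hex v₀ hv₀
  set t := Nat.card (Cy y₀) with ht
  have hVt : Nat.card V = t ^ 2 := (hsq y₀ hy₀).symm
  have hallt : ∀ y ∈ I, Nat.card (Cy y) = t := by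
    intro y hy
    have h1 := hsq y hy
    rw [hVt] at h1
    exact Nat.pow_left_injective (n := 2) (by norm_num) h1
  have ht2 : 2 ≤ t := by
    have h1 : 1 < Nat.card V := Finite.one_lt_card
    rw [hVt] at h1
    by_contra hlt
    have : t ≤ 1 := by omega
    have : t ^ 2 ≤ 1 ^ 2 := Nat.pow_le_pow_left this 2
    omega
  let S : G → Finset V := fun y => Finset.univ.filter (fun v => v ≠ 0 ∧ ρ y v = v)
  have hScard : ∀ y ∈ I, (S y).card = t - 1 := by
    intro y hy
    have h1 : S y = (Finset.univ.filter (fun v => ρ y v = v)).erase 0 := by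
      ext v
      simp [S, and_comm]
    have h2 : (Finset.univ.filter (fun v => ρ y v = v)).card = t := by
      rw [← hallt y hy, Nat.card_eq_fintype_card]
      rw [Fintype.card_subtype]
      congr 1
      ext v
      simp only [Finset.mem_filter, Finset.mem_univ, true_and]
      exact (hCy y v).symm
    rw [h1, Finset.card_erase_of_mem (by simp), h2]
  have hunion : Finset.univ.erase (0 : V) = I.biUnion S := by
    ext v
    simp only [Finset.mem_erase, Finset.mem_univ, and_true, Finset.mem_biUnion, S, Finset.mem_filter, true_and]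
    constructor
    · intro hv
      obtain ⟨y, hy, hyv⟩ := hex v hv
      exact ⟨y, hy, hv, hyv⟩
    · rintro ⟨y, _, hv, _⟩
      exact hv
  have hdisj : (I : Set G).PairwiseDisjoint S := by
    intro y hy y' hy' hne
    rw [Function.onFun, Finset.disjoint_left]
    intro v hv hv'
    simp only [S, Finset.mem_filter, Finset.mem_univ, true_and] at hv hv'
    exact hne (huniq v hv.1 y hy y' hy' hv.2 hv'.2)
  have hcnt : Nat.card V - 1 = I.card * (t - 1) := by
    have h1 : (Finset.univ.erase (0 : V)).card = Nat.card V - 1 := by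
      rw [Finset.card_erase_of_mem (Finset.mem_univ _), Finset.card_univ, Nat.card_eq_fintype_card]
    rw [← h1, hunion, Finset.card_biUnion hdisj, Finset.sum_congr rfl hScard, Finset.sum_const, smul_eq_mul]
  have hI1 : I.card = t + 1 := by
    obtain ⟨u, hu⟩ : ∃ u, t = u + 2 := ⟨t - 2, by omega⟩
    rw [hVt, hu] at hcnt
    rw [hu]
    have e1 : u + 2 - 1 = u + 1 := by omega
    have e2 : (u + 2) ^ 2 - 1 = (u + 2 + 1) * (u + 1) := by
      have : (u + 2) ^ 2 = (u + 2 + 1) * (u + 1) + 1 := by ring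
      omega
    rw [e1, e2] at hcnt
    exact (Nat.eq_of_mul_eq_mul_right (by omega) hcnt).symm
  haveI : Module.Finite (ZMod q) (Cy y₀) := Module.Finite.of_finite
  have hte : t = q ^ Module.finrank (ZMod q) (Cy y₀) := by
    rw [ht, Module.natCard_eq_pow_finrank (K := ZMod q) (V := Cy y₀), Nat.card_zmod]
  refine ⟨Module.finrank (ZMod q) (Cy y₀), ?_, ?_, ?_⟩
  · by_contra hlt
    have h0 : Module.finrank (ZMod q) (Cy y₀) = 0 := by omega
    rw [h0, pow_zero] at hte
    omega
  · rw [← hte]
    exact hVt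
  · rw [← hte]
    exact hI1

end

end Cfsg.Agent.Lib.Recog
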