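import Cfsg.Agent.Lib.Recog.HalfDS

/-!
# Half-transitive linear `2`-groups: dihedral and semidihedral groups
-/

set_option autoImplicit false

namespace Cfsg.Agent.Lib.Recog

open Subgroup

section
variable {q : ℕ} [Fact q.Prime] {V : Type*} [AddCommGroup V] [Module (ZMod q) V] [Finite V] [Nontrivial V]
  {G : Type*} [Group G] [Finite G]
  (ρ : G →* (V ≃ₗ[ZMod q] V))

/-- The dihedral case. -/
theorem half_dihedral (hq2 : (2 : ZMod q) ≠ 0) (hG : IsPGroup 2 G) (hρ : Function.Injective ρ)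
    (hirr : ∀ W : Submodule (ZMod q) V, (∀ g : G, ∀ w ∈ W, ρ g w ∈ W) → W = ⊥ ∨ W = ⊤)
    (hnt : ∀ v : V, v ≠ 0 → ∃ g : G, g ≠ 1 ∧ ρ g v = v)
    {n : ℕ} (hn : 8 ≤ n) (E : G ≃* DihedralGroup n) :
    Nat.card V = q ^ 2 ∧ ∃ m : ℕ, q = 2 ^ m - 1 ∧ Nonempty (G ≃* DihedralGroup (2 ^ m)) := by
  classical
  have hqq : q.Prime := Fact.out
  haveI : NeZero n := ⟨by omega⟩
  have hqne2 : q ≠ 2 := by
    rintro rfl
    apply hq2
    exact_mod_cast ZMod.natCast_self 2
  have hcard : Nat.card G = 2 * n := by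
    rw [Nat.card_congr E.toEquiv, DihedralGroup.nat_card]
  obtain ⟨a, ha⟩ := IsPGroup.iff_card.1 hG
  obtain ⟨n', _, hn'⟩ := (Nat.dvd_prime_pow Nat.prime_two).1 (show n ∣ 2 ^ a from ⟨2, by rw [← ha, hcard]; ring⟩)
  have hn3 : 3 ≤ n' := by
    by_contra hlt
    have : n' ≤ 2 := by omega
    have h1 : 2 ^ n' ≤ 2 ^ 2 := Nat.pow_le_pow_right (by norm_num) this
    rw [← hn'] at h1
    omega
  let x : G := E.symm (DihedralGroup.r 1)
  have hxo : orderOf x = 2 ^ n' := by
    rw [← hn']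
    show orderOf (E.symm (DihedralGroup.r 1)) = n
    rw [MulEquiv.orderOf_eq, DihedralGroup.orderOf_r_one]
  have hindex : (zpowers x).index = 2 := by
    have h1 := Subgroup.card_mul_index (zpowers x)
    rw [Nat.card_zpowers, hxo, hcard, hn'] at h1
    have hpos : 0 < 2 ^ n' := by positivity
    nlinarith
  have hmemA : ∀ i : ZMod n, E.symm (DihedralGroup.r i) ∈ zpowers x := by
    intro i
    have h1 : E.symm (DihedralGroup.r i) = x ^ i.val := by
      show _ = (E.symm (DihedralGroup.r 1)) ^ i.val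
      rw [← map_pow, DihedralGroup.r_one_pow, ZMod.natCast_zmod_val]
    rw [h1]
    exact Subgroup.pow_mem _ (mem_zpowers x) _
  have hnotA : ∀ i : ZMod n, E.symm (DihedralGroup.sr i) ∉ zpowers x := by
    intro i hi
    obtain ⟨k, hk⟩ := (mem_powers_iff_mem_zpowers).2 hi
    have h1 : E.symm (DihedralGroup.r 1) ^ k = E.symm (DihedralGroup.sr i) := hk
    rw [← map_pow, DihedralGroup.r_one_pow] at h1
    have := E.symm.injective h1
    exact absurd this (by simp)
  have hform : ∀ g : G, g ∉ zpowers x → ∃ i, g = E.symm (DihedralGroup.sr i) := by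
    intro g hg
    rcases hE : E g with i | i
    · exfalso
      apply hg
      have : g = E.symm (DihedralGroup.r i) := by
        rw [← hE]; simp
      rw [this]
      exact hmemA i
    · refine ⟨i, ?_⟩
      rw [← hE]; simp
  have hxinv : x ^ (n - 1) = x⁻¹ := by
    apply eq_inv_of_mul_eq_one_left
    rw [← pow_succ, Nat.sub_add_cancel (by omega), hn', ← hxo, pow_orderOf_eq_one]
  have hconj : ∀ g : G, g ∉ zpowers x → g * x * g⁻¹ = x ^ (n - 1) := by
    intro g hg
    obtain ⟨i, rfl⟩ := hform g hg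
    rw [hxinv]
    apply E.injective
    simp only [x, map_mul, map_inv, MulEquiv.apply_symm_apply]
    have hinv : (DihedralGroup.sr i : DihedralGroup n)⁻¹ = DihedralGroup.sr i :=
      inv_eq_of_mul_eq_one_left (DihedralGroup.sr_mul_self i)
    rw [hinv, DihedralGroup.sr_mul_r, DihedralGroup.sr_mul_sr]
    apply eq_inv_of_mul_eq_one_left
    rw [DihedralGroup.r_mul_r, DihedralGroup.one_def]
    congr 1
    ring
  let I : Finset G := Finset.univ.image (fun i : ZMod n => E.symm (DihedralGroup.sr i))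
  have hI : ∀ y, y ∈ I ↔ y * y = 1 ∧ y ∉ zpowers x := by
    intro y
    constructor
    · intro hy
      obtain ⟨i, _, rfl⟩ := Finset.mem_image.1 hy
      refine ⟨?_, hnotA i⟩
      rw [← map_mul, DihedralGroup.sr_mul_self, map_one]
    · rintro ⟨_, hy⟩
      obtain ⟨i, rfl⟩ := hform y hy
      exact Finset.mem_image.2 ⟨i, Finset.mem_univ _, rfl⟩
  have hIcard : I.card = n := by
    rw [Finset.card_image_of_injective, Finset.card_univ, ZMod.card]
    intro i j h
    have := E.symm.injective h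
    simpa using this
  obtain ⟨e, he1, hV, hIe⟩ := ds_count ρ hq2 hG hρ hirr hnt x hn3 hxo hindex (n - 1)
    (by
      rw [Nat.sub_add_cancel (by omega), hn']
      exact pow_dvd_pow 2 (by omega)) hconj I hI
  rw [hIcard, hn'] at hIe
  have he : e = 1 := arith_pow_add_one (hqq.odd_of_ne_two hqne2)
    (by have := hqq.two_le; omega) he1 hIe.symm
  subst he
  rw [pow_one] at hV hIe
  refine ⟨hV, n', by omega, ?_⟩
  rw [← hn']
  exact ⟨E⟩

/-- The semidihedral case. -/
theorem half_sd (hq2 : (2 : ZMod q) ≠ 0) (hG : IsPGroup 2 G) (hρ : Function.Injective ρ)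
    (hirr : ∀ W : Submodule (ZMod q) V, (∀ g : G, ∀ w ∈ W, ρ g w ∈ W) → W = ⊥ ∨ W = ⊤)
    (hnt : ∀ v : V, v ≠ 0 → ∃ g : G, g ≠ 1 ∧ ρ g v = v)
    (hQ : Cfsg.IsQuasiDihedral G) :
    Nat.card V = q ^ 2 ∧ ∃ m : ℕ, q = 2 ^ m - 1 ∧ Nat.card G = 2 ^ (m + 2) := by
  classical
  have hqq : q.Prime := Fact.out
  have hqne2 : q ≠ 2 := by
    rintro rfl
    apply hq2
    exact_mod_cast ZMod.natCast_self 2
  obtain ⟨n, hn, hcard, x, y, hxo, hyo, hyx⟩ := hQ
  obtain ⟨m, rfl⟩ : ∃ m, n = m + 3 := ⟨n - 3, by omega⟩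
  have hxo' : orderOf x = 8 * 2 ^ m := by rw [hxo, pow_add]; ring
  have hs1 : 1 ≤ 2 ^ m := Nat.one_le_two_pow
  have e1 : m + 3 - 1 = m + 2 := by omega
  rw [e1] at hyx
  have e2 : 2 ^ (m + 2) = 4 * 2 ^ m := by rw [pow_add]; ring
  rw [e2] at hyx
  have hyy : y * y = 1 := by
    rw [← pow_two, ← hyo, pow_orderOf_eq_one]
  have hyinv : y⁻¹ = y := inv_eq_of_mul_eq_one_left hyy
  have hindex : (zpowers x).index = 2 := by
    have h1 := Subgroup.card_mul_index (zpowers x)
    rw [Nat.card_zpowers, hxo, hcard, pow_succ (n := m + 3)] at h1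
    have hpos : 0 < 2 ^ (m + 3) := by positivity
    exact Nat.eq_of_mul_eq_mul_left hpos h1
  let r := 4 * 2 ^ m - 1
  have hr : r + 1 = 4 * 2 ^ m := by
    show 4 * 2 ^ m - 1 + 1 = _
    omega
  have hyA : y ∉ zpowers x := by
    intro h
    obtain ⟨i, rfl⟩ := mem_zpowers_iff.1 h
    have h1 : x ^ i * x * (x ^ i)⁻¹ = x := by
      have : Commute (x ^ i) x := Commute.zpow_left (Commute.refl x) i
      rw [this.eq]
      group
    rw [h1] at hyx
    have h2 : x ^ 1 = x ^ (4 * 2 ^ m - 1) := by rw [pow_one]; exact hyx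
    rw [pow_eq_pow_iff_modEq, hxo'] at h2
    have h3 : 1 % (8 * 2 ^ m) = (4 * 2 ^ m - 1) % (8 * 2 ^ m) := h2
    rw [Nat.mod_eq_of_lt (by omega), Nat.mod_eq_of_lt (by omega)] at h3
    omega
  have hconj : ∀ g : G, g ∉ zpowers x → g * x * g⁻¹ = x ^ r := by
    intro g hg
    have h1 : g * y ∈ zpowers x := by
      rw [Subgroup.mul_mem_iff_of_index_two hindex]
      simp [hg, hyA]
    obtain ⟨i, hi⟩ := mem_zpowers_iff.1 h1
    have hg' : g = x ^ i * y := by
      rw [hi, mul_assoc, hyy, mul_one]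
    rw [hg']
    calc x ^ i * y * x * (x ^ i * y)⁻¹ = x ^ i * (y * x * y⁻¹) * (x ^ i)⁻¹ := by group
      _ = x ^ i * x ^ r * (x ^ i)⁻¹ := by rw [hyx]
      _ = x ^ r := by
        have : Commute (x ^ i) (x ^ r) := Commute.zpow_left (Commute.pow_right (Commute.refl x) r) i
        rw [this.eq]
        group
  have hsq : ∀ k : ℕ, (x ^ k * y) * (x ^ k * y) = x ^ (k * (4 * 2 ^ m)) := by
    intro k
    have h1 : y * x ^ k * y⁻¹ = x ^ (r * k) := by
      rw [← conj_pow, hyx, ← pow_mul]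
    have h2 : (x ^ k * y) * (x ^ k * y) = x ^ k * (y * x ^ k * y⁻¹) * (y * y) := by
      group
    rw [h2, h1, hyy, mul_one, ← pow_add, ← hr]
    congr 1
    ring
  let I : Finset G := (Finset.range (4 * 2 ^ m)).image (fun i => x ^ (2 * i) * y)
  have hI : ∀ z, z ∈ I ↔ z * z = 1 ∧ z ∉ zpowers x := by
    intro z
    constructor
    · intro hz
      obtain ⟨i, _, rfl⟩ := Finset.mem_image.1 hz
      constructor
      · rw [hsq, ← orderOf_dvd_iff_pow_eq_one, hxo']
        exact ⟨i, by ring⟩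
      · intro h
        apply hyA
        have : y = (x ^ (2 * i))⁻¹ * (x ^ (2 * i) * y) := by group
        rw [this]
        exact Subgroup.mul_mem _ (Subgroup.inv_mem _ (Subgroup.pow_mem _ (mem_zpowers x) _)) h
    · rintro ⟨hz, hzA⟩
      have h1 : z * y ∈ zpowers x := by
        rw [Subgroup.mul_mem_iff_of_index_two hindex]
        simp [hzA, hyA]
      obtain ⟨k, hk⟩ := (mem_powers_iff_mem_zpowers).2 h1
      have hz' : z = x ^ k * y := by
        have hk' : x ^ k = z * y := hk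
        rw [hk', mul_assoc, hyy, mul_one]
      rw [hz', hsq, ← orderOf_dvd_iff_pow_eq_one, hxo'] at hz
      have h2 : 2 ∣ k := by
        have e3 : 8 * 2 ^ m = 2 * (4 * 2 ^ m) := by ring
        rw [e3] at hz
        have hpos : 0 < 4 * 2 ^ m := by omega
        exact Nat.dvd_of_mul_dvd_mul_right hpos hz
      obtain ⟨i, rfl⟩ := h2
      -- reduce the exponent modulo the order
      refine Finset.mem_image.2 ⟨i % (4 * 2 ^ m), Finset.mem_range.2 (Nat.mod_lt _ (by omega)), ?_⟩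
      rw [hz']
      congr 1
      rw [pow_eq_pow_iff_modEq, hxo']
      have e4 : 8 * 2 ^ m = 2 * (4 * 2 ^ m) := by ring
      rw [e4]
      exact ((Nat.mod_modEq i (4 * 2 ^ m)).mul_left' 2)
  have hIcard : I.card = 4 * 2 ^ m := by
    rw [Finset.card_image_of_injOn, Finset.card_range]
    intro i hi j hj h
    have hi' : i < 4 * 2 ^ m := Finset.mem_range.1 hi
    have hj' : j < 4 * 2 ^ m := Finset.mem_range.1 hj
    have h1 : x ^ (2 * i) = x ^ (2 * j) := mul_right_cancel h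
    rw [pow_eq_pow_iff_modEq, hxo'] at h1
    have h2 : (2 * i) % (8 * 2 ^ m) = (2 * j) % (8 * 2 ^ m) := h1
    rw [Nat.mod_eq_of_lt (by omega), Nat.mod_eq_of_lt (by omega)] at h2
    omega
  obtain ⟨e, he1, hV, hIe⟩ := ds_count ρ hq2 hG hρ hirr hnt x (n := m + 3) (by omega) hxo hindex r
    (by
      rw [hr, e1, e2]) hconj I hI
  rw [hIcard] at hIe
  have he : e = 1 := arith_pow_add_one (b := m + 2) (hqq.odd_of_ne_two hqne2)
    (by have := hqq.two_le; omega) he1 (by rw [← hIe, e2])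
  subst he
  rw [pow_one] at hV hIe
  refine ⟨hV, m + 2, ?_, ?_⟩
  · rw [e2]
    omega
  · rw [hcard]

end

end Cfsg.Agent.Lib.Recog
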