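import Cfsg.Agent.Lib.Recog.HalfCore

/-!
# Half-transitive linear `2`-groups: the imprimitive case
-/

set_option autoImplicit false

namespace Cfsg.Agent.Lib.Recog

open Subgroup

section
variable {q : ℕ} [Fact q.Prime] {V : Type*} [AddCommGroup V] [Module (ZMod q) V] [Finite V] [Nontrivial V]
  {G : Type*} [Group G] [Finite G]
  (ρ : G →* (V ≃ₗ[ZMod q] V))

/-- The imprimitive case with two blocks. -/
theorem half_two (hG : IsPGroup 2 G) (hρ : Function.Injective ρ) (hq2 : (2 : ZMod q) ≠ 0)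
    (hstab : ∀ v w : V, v ≠ 0 → w ≠ 0 → Nat.card (fixSub ρ v) = Nat.card (fixSub ρ w))
    (hirr : ∀ W : Submodule (ZMod q) V, (∀ g : G, ∀ w ∈ W, ρ g w ∈ W) → W = ⊥ ∨ W = ⊤)
    (H : Subgroup G) (hindex : H.index = 2) (A B : Submodule (ZMod q) V) (hcompl : IsCompl A B)
    (hHA : ∀ h ∈ H, ∀ a ∈ A, ρ h a ∈ A) (hHB : ∀ h ∈ H, ∀ b ∈ B, ρ h b ∈ B)
    (hgA : ∀ g : G, g ∉ H → ∀ a ∈ A, ρ g a ∈ B) (hgB : ∀ g : G, g ∉ H → ∀ b ∈ B, ρ g b ∈ A)
    (hk : ∃ h ∈ H, h ≠ 1 ∧ ∀ a ∈ A, ρ h a = a) (hA0 : A ≠ ⊥) (hB0 : B ≠ ⊥) :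
    (Nat.card V = q ^ 2 ∧ (∃ m : ℕ, q = 2 ^ m + 1) ∧
      ∃ e : V ≃ₗ[ZMod q] (Fin 2 → ZMod q), ∀ f : (Fin 2 → ZMod q) ≃ₗ[ZMod q] (Fin 2 → ZMod q),
        (∃ g : G, f = e.symm.trans ((ρ g).trans e)) ↔
        ∃ a s : ZMod q, a ≠ 0 ∧ (s = 1 ∨ s = -1) ∧
          ((∀ v, f v = ![a * v 0, s * a⁻¹ * v 1]) ∨ (∀ v, f v = ![s * a⁻¹ * v 1, a * v 0]))) ∨
    (Nat.card V = 81 ∧ q = 3) := by
  classical
  have hqq : q.Prime := Fact.out
  have hdisj := Submodule.disjoint_def.1 hcompl.disjoint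
  have hqne2 : q ≠ 2 := by
    rintro rfl
    apply hq2
    exact_mod_cast ZMod.natCast_self 2
  -- separation
  have hsep : ∀ a ∈ A, ∀ b ∈ B, a + b = 0 → a = 0 ∧ b = 0 := by
    intro a ha b hb h
    have h1 : a = -b := eq_neg_of_add_eq_zero_left h
    have h2 : a ∈ B := by rw [h1]; exact B.neg_mem hb
    have h3 := hdisj a ha h2
    refine ⟨h3, ?_⟩
    rw [h3, zero_add] at h
    exact h
  have hsplit : ∀ v : V, ∃ a ∈ A, ∃ b ∈ B, a + b = v := by
    intro v
    have hv : v ∈ A ⊔ B := by rw [hcompl.sup_eq_top]; trivial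
    exact Submodule.mem_sup.1 hv
  have htriv : ∀ g : G, (∀ a ∈ A, ρ g a = a) → (∀ b ∈ B, ρ g b = b) → g = 1 := by
    intro g h1 h2
    apply hρ
    rw [map_one]
    ext v
    obtain ⟨a, ha, b, hb, rfl⟩ := hsplit v
    rw [map_add, h1 a ha, h2 b hb]
    simp
  have hHn : H.Normal := Subgroup.normal_of_index_eq_two hindex
  have hmulH : ∀ g g' : G, g ∉ H → g' ∉ H → g * g' ∈ H := by
    intro g g' h h'
    rw [Subgroup.mul_mem_iff_of_index_two hindex]
    simp [h, h']
  have hmulH' : ∀ g h : G, g ∉ H → h ∈ H → g * h ∉ H := by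
    intro g h hg hh hgh
    rw [Subgroup.mul_mem_iff_of_index_two hindex] at hgh
    exact hg (hgh.2 hh)
  obtain ⟨g₁, hg₁⟩ : ∃ g, g ∉ H := by
    by_contra hcon
    push Not at hcon
    have : H = ⊤ := by
      rw [eq_top_iff]
      intro g _
      exact hcon g
    rw [this, Subgroup.index_top] at hindex
    omega
  -- elements outside `H` move nonzero vectors of the blocks
  have hfreeA : ∀ g : G, g ∉ H → ∀ a ∈ A, a ≠ 0 → ρ g a ≠ a := by
    intro g hg a ha ha0 h
    have := hgA g hg a ha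
    rw [h] at this
    exact ha0 (hdisj a ha this)
  have hfreeB : ∀ g : G, g ∉ H → ∀ b ∈ B, b ≠ 0 → ρ g b ≠ b := by
    intro g hg b hb hb0 h
    have := hgB g hg b hb
    rw [h] at this
    exact hb0 (hdisj b this hb)
  have hHsplit : ∀ h ∈ H, ∀ a ∈ A, ∀ b ∈ B, ρ h (a + b) = a + b → ρ h a = a ∧ ρ h b = b := by
    intro h hh a ha b hb he
    rw [map_add] at he
    have h1 : (ρ h a - a) + (ρ h b - b) = 0 := by
      rw [sub_add_sub_comm, he, sub_self]
    obtain ⟨h2, h3⟩ := hsep _ (A.sub_mem (hHA h hh a ha) ha) _ (B.sub_mem (hHB h hh b hb) hb) h1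
    exact ⟨sub_eq_zero.1 h2, sub_eq_zero.1 h3⟩
  have hswap : ∀ g : G, g ∉ H → ∀ a ∈ A, ∀ b ∈ B, ρ g (a + b) = a + b → ρ g a = b ∧ ρ g b = a := by
    intro g hg a ha b hb he
    rw [map_add] at he
    have h1 : (ρ g b - a) + (ρ g a - b) = 0 := by
      have : (ρ g b - a) + (ρ g a - b) = (ρ g a + ρ g b) - (a + b) := by abel
      rw [this, he, sub_self]
    obtain ⟨h2, h3⟩ := hsep _ (A.sub_mem (hgB g hg b hb) ha) _ (B.sub_mem (hgA g hg a ha) hb) h1
    exact ⟨sub_eq_zero.1 h3, sub_eq_zero.1 h2⟩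
  -- the Key: every vector with both components nonzero is fixed by an element outside `H`
  obtain ⟨h₀, hh₀, hh₀1, hh₀A⟩ := hk
  have hKey : ∀ a ∈ A, ∀ b ∈ B, a ≠ 0 → b ≠ 0 → ∃ g : G, g ∉ H ∧ ρ g a = b ∧ ρ g b = a := by
    intro a ha b hb ha0 hb0
    by_contra hcon
    push Not at hcon
    have hab0 : a + b ≠ 0 := fun h => ha0 (hsep a ha b hb h).1
    have hle : fixSub ρ (a + b) ≤ H := by
      intro g hg
      by_contra hgH
      obtain ⟨h1, h2⟩ := hswap g hgH a ha b hb hg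
      exact hcon g hgH h1 h2
    have h1 : fixSub ρ (a + b) = fixSub ρ a :=
      Subgroup.eq_of_le_of_card_ge (fun g hg => (hHsplit g (hle hg) a ha b hb hg).1) (hstab _ _ ha0 hab0).le
    have h2 : fixSub ρ (a + b) = fixSub ρ b :=
      Subgroup.eq_of_le_of_card_ge (fun g hg => (hHsplit g (hle hg) a ha b hb hg).2) (hstab _ _ hb0 hab0).le
    have hab : fixSub ρ a = fixSub ρ b := h1.symm.trans h2
    -- the kernel on `A`
    let K : Subgroup G :=
      { carrier := {k | ∀ x ∈ A, ρ k x = x}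
        one_mem' := by
          intro x _
          simp
        mul_mem' := by
          intro k k' hk hk' x hx
          rw [map_mul, LinearEquiv.mul_apply, hk' x hx, hk x hx]
        inv_mem' := by
          intro k hk x hx
          have h3 : ρ k⁻¹ (ρ k x) = x := by
            rw [← LinearEquiv.mul_apply, ← map_mul]
            simp
          rwa [hk x hx] at h3 }
    have hmemK : ∀ k, k ∈ K ↔ ∀ x ∈ A, ρ k x = x := fun k => Iff.rfl
    have hKH : K ≤ H := by
      intro k hk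
      by_contra hkH
      exact hfreeA k hkH a ha ha0 (hk a ha)
    have hKb : ∀ k ∈ K, ρ k b = b := by
      intro k hk
      have h3 : k ∈ fixSub ρ a := hk a ha
      rw [hab] at h3
      exact h3
    let C : Submodule (ZMod q) V := B ⊓ Cfix ρ K
    have hmemC : ∀ v, v ∈ C ↔ v ∈ B ∧ ∀ k ∈ K, ρ k v = v := fun v => Iff.rfl
    have hCH : ∀ h ∈ H, ∀ c ∈ C, ρ h c ∈ C := by
      intro h hh c hc
      rw [hmemC] at hc ⊢
      refine ⟨hHB h hh c hc.1, fun k hk => ?_⟩
      have h3 : h⁻¹ * k * h ∈ K := by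
        rw [hmemK]
        intro x hx
        have h4 : ρ h x ∈ A := hHA h hh x hx
        rw [map_mul, map_mul, LinearEquiv.mul_apply, LinearEquiv.mul_apply, (hmemK k).1 hk _ h4,
          ← LinearEquiv.mul_apply, ← map_mul]
        simp
      have h5 := hc.2 _ h3
      have h6 : ρ k (ρ h c) = ρ h (ρ (h⁻¹ * k * h) c) := by
        rw [← LinearEquiv.mul_apply, ← LinearEquiv.mul_apply, ← map_mul, ← map_mul]
        congr 2
        group
      rw [h6, h5]
    let U : Submodule (ZMod q) V := C ⊔ C.map ((ρ g₁ : V ≃ₗ[ZMod q] V) : V →ₗ[ZMod q] V)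
    have hUinv : ∀ g : G, ∀ u ∈ U, ρ g u ∈ U := by
      intro g u hu
      have hmem2 : ∀ c ∈ C, ρ g₁ c ∈ C.map ((ρ g₁ : V ≃ₗ[ZMod q] V) : V →ₗ[ZMod q] V) := fun c hc =>
        Submodule.mem_map_of_mem (f := ((ρ g₁ : V ≃ₗ[ZMod q] V) : V →ₗ[ZMod q] V)) hc
      have hle1 : U ≤ U.comap ((ρ g : V ≃ₗ[ZMod q] V) : V →ₗ[ZMod q] V) := by
        apply sup_le
        · intro c hc
          rw [Submodule.mem_comap]
          by_cases hg : g ∈ H
          · exact Submodule.mem_sup_left (hCH g hg c hc)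
          · have h3 : g₁⁻¹ * g ∈ H := by
              rw [Subgroup.mul_mem_iff_of_index_two hindex]
              simp [hg, hg₁]
            have h4 : ρ g c = ρ g₁ (ρ (g₁⁻¹ * g) c) := by
              rw [← LinearEquiv.mul_apply, ← map_mul]
              congr 2
              group
            show ρ g c ∈ U
            rw [h4]
            exact Submodule.mem_sup_right (hmem2 _ (hCH _ h3 c hc))
        · rintro _ ⟨c, hc, rfl⟩
          rw [Submodule.mem_comap]
          show ρ g (ρ g₁ c) ∈ U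
          by_cases hg : g ∈ H
          · have h3 : g₁⁻¹ * g * g₁ ∈ H := by
              have := hHn.conj_mem g hg g₁⁻¹
              simpa using this
            have h4 : ρ g (ρ g₁ c) = ρ g₁ (ρ (g₁⁻¹ * g * g₁) c) := by
              rw [← LinearEquiv.mul_apply, ← LinearEquiv.mul_apply, ← map_mul, ← map_mul]
              congr 2
              group
            rw [h4]
            exact Submodule.mem_sup_right (hmem2 _ (hCH _ h3 c hc))
          · rw [← LinearEquiv.mul_apply, ← map_mul]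
            exact Submodule.mem_sup_left (hCH _ (hmulH g g₁ hg hg₁) c hc)
      exact hle1 hu
    have hbC : b ∈ C := (hmemC b).2 ⟨hb, hKb⟩
    rcases hirr U hUinv with h3 | h3
    · have : b ∈ U := Submodule.mem_sup_left hbC
      rw [h3] at this
      exact hb0 ((Submodule.mem_bot _).1 this)
    · -- `B ≤ C`
      have hBC : ∀ y ∈ B, y ∈ C := by
        intro y hy
        have hyU : y ∈ U := by rw [h3]; trivial
        obtain ⟨c, hc, _, ⟨c', hc', rfl⟩, hsum⟩ := Submodule.mem_sup.1 hyU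
        have h4 : ρ g₁ c' ∈ A := hgB g₁ hg₁ c' ((hmemC c').1 hc').1
        have h5 : y - c ∈ B := B.sub_mem hy ((hmemC c).1 hc).1
        have h6 : ρ g₁ c' = y - c := by
          have hsum' : c + ρ g₁ c' = y := hsum
          rw [← hsum']
          abel
        have h7 : ρ g₁ c' = 0 := hdisj _ h4 (h6 ▸ h5)
        have h8 : y = c := by
          have hsum' : c + ρ g₁ c' = y := hsum
          rw [h7, add_zero] at hsum'
          exact hsum'.symm
        rw [h8]
        exact hc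
      apply hh₀1
      apply htriv h₀ hh₀A
      intro y hy
      exact ((hmemC y).1 (hBC y hy)).2 h₀ ((hmemK h₀).2 hh₀A)
  -- basic nonzero vectors
  obtain ⟨a₀, ha₀, ha₀0⟩ := Submodule.exists_mem_ne_zero_of_ne_bot hA0
  obtain ⟨b₀, hb₀, hb₀0⟩ := Submodule.exists_mem_ne_zero_of_ne_bot hB0
  -- `H` is transitive on the nonzero vectors of `A`
  have hHtrans : ∀ a ∈ A, a ≠ 0 → ∃ h ∈ H, ρ h a₀ = a := by
    intro a ha ha0
    obtain ⟨g, hg, hg1, _⟩ := hKey a₀ ha₀ b₀ hb₀ ha₀0 hb₀0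
    obtain ⟨g', hg', hg1', _⟩ := hKey a ha b₀ hb₀ ha0 hb₀0
    refine ⟨g'⁻¹ * g, ?_, ?_⟩
    · rw [Subgroup.mul_mem_iff_of_index_two hindex]
      simp [hg, hg']
    · rw [map_mul, LinearEquiv.mul_apply, hg1, ← hg1', ← LinearEquiv.mul_apply, ← map_mul]
      simp
  -- sizes of the blocks
  have hcardBA : Nat.card B = Nat.card A := by
    have h1 : A.map ((ρ g₁ : V ≃ₗ[ZMod q] V) : V →ₗ[ZMod q] V) = B := by
      apply le_antisymm
      · rintro _ ⟨a, ha, rfl⟩
        exact hgA g₁ hg₁ a ha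
      · intro b hb
        refine ⟨ρ g₁⁻¹ b, hgB g₁⁻¹ (fun h => hg₁ (by simpa using H.inv_mem h)) b hb, ?_⟩
        show ρ g₁ (ρ g₁⁻¹ b) = b
        rw [← LinearEquiv.mul_apply, ← map_mul]
        simp
    rw [← h1]
    exact Nat.card_congr ((ρ g₁).submoduleMap A).toEquiv.symm
  have hVcard : Nat.card V = Nat.card A ^ 2 := by
    have hcard := Nat.card_congr (Submodule.prodEquivOfIsCompl _ _ hcompl).toEquiv
    rw [Nat.card_prod, hcardBA] at hcard
    rw [pow_two, hcard]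
  haveI : Module.Finite (ZMod q) A := Module.Finite.of_finite
  obtain ⟨d, hd⟩ : ∃ d, Nat.card A = q ^ d :=
    ⟨_, by rw [Module.natCard_eq_pow_finrank (K := ZMod q) (V := A), Nat.card_zmod]⟩
  have hd1 : 1 ≤ d := by
    by_contra hlt
    have h0 : d = 0 := by omega
    rw [h0, pow_zero] at hd
    have h1 : Subsingleton A := (Nat.card_eq_one_iff_unique.1 hd).1
    apply ha₀0
    have := h1.elim ⟨a₀, ha₀⟩ 0
    exact congrArg Subtype.val this
  -- `|A| - 1` is a power of `2`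
  obtain ⟨k, hk⟩ : ∃ k, q ^ d = 2 ^ k + 1 := by
    let ρH : H →* (V ≃ₗ[ZMod q] V) := ρ.comp H.subtype
    have h1 := orbit_card_mul ρH a₀
    have h2 : {u : V | ∃ g : H, ρH g a₀ = u} = {u : V | u ∈ A ∧ u ≠ 0} := by
      ext u
      constructor
      · rintro ⟨⟨h, hh⟩, rfl⟩
        refine ⟨hHA h hh a₀ ha₀, ?_⟩
        intro h0
        apply ha₀0
        have h3 : ρ h a₀ = 0 := h0
        exact ((ρ h).map_eq_zero_iff).1 h3
      · rintro ⟨hu, hu0⟩
        obtain ⟨h, hh, rfl⟩ := hHtrans u hu hu0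
        exact ⟨⟨h, hh⟩, rfl⟩
    rw [h2] at h1
    have h3 : Nat.card {u : V | u ∈ A ∧ u ≠ 0} + 1 = Nat.card A := by
      haveI hfin : Fintype V := Fintype.ofFinite V
      have e1 : Nat.card A = (Finset.univ.filter fun u : V => u ∈ A).card :=
        Nat.subtype_card _ (by intro x; simp)
      have e2 : Nat.card {u : V | u ∈ A ∧ u ≠ 0} = ((Finset.univ.filter fun u : V => u ∈ A).erase 0).card :=
        Nat.subtype_card (p := fun u : V => u ∈ A ∧ u ≠ 0) _ (by intro x; simp [and_comm])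
      rw [e1, e2, Finset.card_erase_of_mem (by simp)]
      have : 0 < (Finset.univ.filter fun u : V => u ∈ A).card :=
        Finset.card_pos.2 ⟨0, by simp⟩
      omega
    have h4 : Nat.card {u : V | u ∈ A ∧ u ≠ 0} ∣ 2 ^ (Nat.log 2 (Nat.card H)) := by
      obtain ⟨c, hc⟩ := IsPGroup.iff_card.1 (hG.to_subgroup H)
      have hlog : Nat.log 2 (Nat.card H) = c := by
        rw [hc]
        exact Nat.log_pow (by norm_num) c
      rw [hlog, ← hc, ← h1]
      exact dvd_mul_right _ _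
    obtain ⟨k, _, hk⟩ := (Nat.dvd_prime_pow Nat.prime_two).1 h4
    exact ⟨k, by rw [← hd, ← h3, hk]⟩
  rcases arith_pow_sub_one hqq hqne2 hd1 hk with rfl | ⟨rfl, rfl⟩
  · -- the monomial case
    left
    rw [pow_one] at hd hk
    refine ⟨by rw [hVcard, hd], ⟨k, hk⟩, ?_⟩
    -- `A` and `B` are lines
    have hline : ∀ (Y : Submodule (ZMod q) V) (y : V), Nat.card Y = q → y ∈ Y → y ≠ 0 → ∀ u ∈ Y, ∃ c : ZMod q, u = c • y := by
      intro Y y hY hy hy0 u hu
      let φ : ZMod q → Y := fun c => ⟨c • y, Y.smul_mem c hy⟩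
      have hinj : Function.Injective φ := by
        intro c c' h
        have h1 : c • y = c' • y := congrArg Subtype.val h
        exact smul_left_injective _ hy0 h1
      have hbij : Function.Bijective φ := by
        refine (Nat.bijective_iff_injective_and_card φ).2 ⟨hinj, ?_⟩
        rw [hY, Nat.card_zmod]
      obtain ⟨c, hc⟩ := hbij.2 ⟨u, hu⟩
      exact ⟨c, (congrArg Subtype.val hc).symm⟩
    have hlineA := hline A a₀ hd ha₀ ha₀0
    have hlineB := hline B b₀ (hcardBA.trans hd) hb₀ hb₀0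
    -- the coordinates
    let φ : (Fin 2 → ZMod q) →ₗ[ZMod q] V :=
      (LinearMap.proj 0 : (Fin 2 → ZMod q) →ₗ[ZMod q] ZMod q).smulRight a₀ +
        (LinearMap.proj 1 : (Fin 2 → ZMod q) →ₗ[ZMod q] ZMod q).smulRight b₀
    have hφ : ∀ u, φ u = u 0 • a₀ + u 1 • b₀ := fun u => rfl
    have hφbij : Function.Bijective φ := by
      constructor
      · rw [← LinearMap.ker_eq_bot, eq_bot_iff]
        intro u hu
        rw [LinearMap.mem_ker, hφ] at hu
        obtain ⟨h1, h2⟩ := hsep _ (A.smul_mem _ ha₀) _ (B.smul_mem _ hb₀) hu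
        have h3 := (smul_eq_zero.1 h1).resolve_right ha₀0
        have h4 := (smul_eq_zero.1 h2).resolve_right hb₀0
        rw [Submodule.mem_bot]
        ext i
        fin_cases i
        · exact h3
        · exact h4
      · intro v
        obtain ⟨a, ha, b, hb, rfl⟩ := hsplit v
        obtain ⟨c, rfl⟩ := hlineA a ha
        obtain ⟨d, rfl⟩ := hlineB b hb
        exact ⟨![c, d], by simp [hφ]⟩
    let eφ : (Fin 2 → ZMod q) ≃ₗ[ZMod q] V := LinearEquiv.ofBijective φ hφbij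
    have heφ : ∀ u, eφ u = u 0 • a₀ + u 1 • b₀ := fun u => rfl
    -- coordinates of the action
    have hdiag : ∀ (g : G) (α β : ZMod q), ρ g a₀ = α • a₀ → ρ g b₀ = β • b₀ → ∀ u,
        (eφ.symm.symm.trans ((ρ g).trans eφ.symm)) u = ![α * u 0, β * u 1] := by
      intro g α β h1 h2 u
      show eφ.symm (ρ g (eφ u)) = _
      rw [LinearEquiv.symm_apply_eq, heφ, heφ, map_add, map_smul, map_smul, h1, h2, smul_smul, smul_smul]
      simp [mul_comm]
    have hanti : ∀ (g : G) (α β : ZMod q), ρ g a₀ = α • b₀ → ρ g b₀ = β • a₀ → ∀ u,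
        (eφ.symm.symm.trans ((ρ g).trans eφ.symm)) u = ![β * u 1, α * u 0] := by
      intro g α β h1 h2 u
      show eφ.symm (ρ g (eφ u)) = _
      rw [LinearEquiv.symm_apply_eq, heφ, heφ, map_add, map_smul, map_smul, h1, h2, smul_smul, smul_smul]
      simp [mul_comm, add_comm]
    -- the element swapping the basis
    obtain ⟨g₀, hg₀, hg₀a, hg₀b⟩ := hKey a₀ ha₀ b₀ hb₀ ha₀0 hb₀0
    -- the diagonal elements
    have hpair : ∀ r : ZMod q, r ≠ 0 → ∃ h ∈ H, ρ h a₀ = r • a₀ ∧ ρ h b₀ = r⁻¹ • b₀ := by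
      intro r hr
      have hrb : r • b₀ ≠ 0 := smul_ne_zero hr hb₀0
      obtain ⟨g, hg, hg1, hg2⟩ := hKey a₀ ha₀ (r • b₀) (B.smul_mem _ hb₀) ha₀0 hrb
      have hgb : ρ g b₀ = r⁻¹ • a₀ := by
        have h1 : r⁻¹ • ρ g (r • b₀) = r⁻¹ • a₀ := by rw [hg2]
        rw [map_smul, smul_smul, inv_mul_cancel₀ hr, one_smul] at h1
        exact h1
      refine ⟨g₀ * g, hmulH g₀ g hg₀ hg, ?_, ?_⟩
      · rw [map_mul, LinearEquiv.mul_apply, hg1, map_smul, hg₀b]
      · rw [map_mul, LinearEquiv.mul_apply, hgb, map_smul, hg₀a]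
    -- the stabilizer of `a₀ + b₀` has order two
    have hab0 : a₀ + b₀ ≠ 0 := fun h => ha₀0 (hsep a₀ ha₀ b₀ hb₀ h).1
    have hg₀1 : g₀ ≠ 1 := by
      rintro rfl
      exact hg₀ H.one_mem
    have hfixab : ∀ g ∈ fixSub ρ (a₀ + b₀), g = 1 ∨ g = g₀ := by
      intro g hg
      by_cases hgH : g ∈ H
      · left
        obtain ⟨h1, h2⟩ := hHsplit g hgH a₀ ha₀ b₀ hb₀ hg
        apply htriv
        · intro x hx
          obtain ⟨c, rfl⟩ := hlineA x hx
          rw [map_smul, h1]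
        · intro x hx
          obtain ⟨c, rfl⟩ := hlineB x hx
          rw [map_smul, h2]
      · right
        obtain ⟨h1, h2⟩ := hswap g hgH a₀ ha₀ b₀ hb₀ hg
        have h3 : g₀⁻¹ * g = 1 := by
          apply htriv
          · intro x hx
            obtain ⟨c, rfl⟩ := hlineA x hx
            rw [map_smul, map_mul, LinearEquiv.mul_apply, h1, ← hg₀a, ← LinearEquiv.mul_apply, ← map_mul]
            simp
          · intro x hx
            obtain ⟨c, rfl⟩ := hlineB x hx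
            rw [map_smul, map_mul, LinearEquiv.mul_apply, h2, ← hg₀b, ← LinearEquiv.mul_apply, ← map_mul]
            simp
        exact (inv_mul_eq_one.1 h3).symm
    have hcard2 : Nat.card (fixSub ρ (a₀ + b₀)) = 2 := by
      have hg₀mem : g₀ ∈ fixSub ρ (a₀ + b₀) := by
        show ρ g₀ (a₀ + b₀) = a₀ + b₀
        rw [map_add, hg₀a, hg₀b, add_comm]
      rw [Nat.card_eq_two_iff]
      refine ⟨1, ⟨g₀, hg₀mem⟩, ?_, ?_⟩
      · intro h
        exact hg₀1 (congrArg Subtype.val h).symm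
      · ext ⟨g, hg⟩
        simp only [Set.mem_insert_iff, Set.mem_singleton_iff, Set.mem_univ, iff_true]
        rcases hfixab g hg with rfl | rfl
        · left; rfl
        · right; rfl
    have hcardA : Nat.card (fixSub ρ a₀) = 2 := (hstab _ _ ha₀0 hab0).trans hcard2
    -- eigenvalues of elements of `H`
    have heig : ∀ h ∈ H, ∃ α β : ZMod q, α ≠ 0 ∧ β ≠ 0 ∧ ρ h a₀ = α • a₀ ∧ ρ h b₀ = β • b₀ := by
      intro h hh
      obtain ⟨α, hα⟩ := hlineA _ (hHA h hh a₀ ha₀)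
      obtain ⟨β, hβ⟩ := hlineB _ (hHB h hh b₀ hb₀)
      refine ⟨α, β, ?_, ?_, hα, hβ⟩
      · rintro rfl
        rw [zero_smul] at hα
        exact ha₀0 (((ρ h).map_eq_zero_iff).1 hα)
      · rintro rfl
        rw [zero_smul] at hβ
        exact hb₀0 (((ρ h).map_eq_zero_iff).1 hβ)
    -- elements of the stabilizer of `a₀`
    have hsign : ∀ k ∈ H, ∀ c : ZMod q, ρ k a₀ = a₀ → ρ k b₀ = c • b₀ → c = 1 ∨ c = -1 := by
      intro k _ c h1 h2
      have hk2 : (⟨k, h1⟩ : fixSub ρ a₀) ^ 2 = 1 := by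
        rw [← hcardA]
        exact pow_card_eq_one'
      have hk3 : k ^ 2 = 1 := congrArg Subtype.val hk2
      have h3 : ρ (k ^ 2) b₀ = (c * c) • b₀ := by
        rw [pow_two, map_mul, LinearEquiv.mul_apply, h2, map_smul, h2, smul_smul]
      rw [hk3, map_one] at h3
      have h4 : (1 : ZMod q) • b₀ = (c * c) • b₀ := by
        rw [one_smul]
        exact h3
      have h5 := smul_left_injective _ hb₀0 h4
      have h6 : (c - 1) * (c + 1) = 0 := by
        linear_combination -h5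
      rcases mul_eq_zero.1 h6 with h7 | h7
      · left; exact sub_eq_zero.1 h7
      · right; exact eq_neg_of_add_eq_zero_left h7
    -- the element `(1, -1)`
    obtain ⟨k₀, hk₀H, hk₀a, hk₀b⟩ : ∃ k ∈ H, ρ k a₀ = a₀ ∧ ρ k b₀ = (-1 : ZMod q) • b₀ := by
      obtain ⟨α, β, _, _, h1, h2⟩ := heig h₀ hh₀
      have hα : ρ h₀ a₀ = a₀ := hh₀A a₀ ha₀
      rcases hsign h₀ hh₀ β hα h2 with rfl | rfl
      · exfalso
        apply hh₀1
        apply htriv _ hh₀A
        intro x hx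
        obtain ⟨c, rfl⟩ := hlineB x hx
        rw [map_smul, h2, one_smul]
      · exact ⟨h₀, hh₀, hα, h2⟩
    -- form of elements of `H`
    have hform : ∀ h ∈ H, ∃ α s : ZMod q, α ≠ 0 ∧ (s = 1 ∨ s = -1) ∧ ρ h a₀ = α • a₀ ∧ ρ h b₀ = (s * α⁻¹) • b₀ := by
      intro h hh
      obtain ⟨α, β, hα, hβ, h1, h2⟩ := heig h hh
      obtain ⟨t, htH, ht1, ht2⟩ := hpair α hα
      have htinvb : ρ t⁻¹ b₀ = α • b₀ := by
        have h3 : ρ t⁻¹ (ρ t b₀) = b₀ := by
          rw [← LinearEquiv.mul_apply, ← map_mul]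
          simp
        rw [ht2, map_smul] at h3
        have h4 : α • (α⁻¹ • ρ t⁻¹ b₀) = α • b₀ := by rw [h3]
        rwa [smul_smul, mul_inv_cancel₀ hα, one_smul] at h4
      have htinva : ρ t⁻¹ a₀ = α⁻¹ • a₀ := by
        have h3 : ρ t⁻¹ (ρ t a₀) = a₀ := by
          rw [← LinearEquiv.mul_apply, ← map_mul]
          simp
        rw [ht1, map_smul] at h3
        have h4 : α⁻¹ • (α • ρ t⁻¹ a₀) = α⁻¹ • a₀ := by rw [h3]
        rwa [smul_smul, inv_mul_cancel₀ hα, one_smul] at h4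
      have hs := hsign (t⁻¹ * h) (H.mul_mem (H.inv_mem htH) hh) (β * α)
        (by
          rw [map_mul, LinearEquiv.mul_apply, h1, map_smul, htinva, smul_smul, mul_inv_cancel₀ hα, one_smul])
        (by
          rw [map_mul, LinearEquiv.mul_apply, h2, map_smul, htinvb, smul_smul])
      refine ⟨α, β * α, hα, hs, h1, ?_⟩
      rw [h2, mul_assoc, mul_inv_cancel₀ hα, mul_one]
    refine ⟨eφ.symm, fun f => ⟨?_, ?_⟩⟩
    · rintro ⟨g, rfl⟩
      by_cases hgH : g ∈ H
      · obtain ⟨α, s, hα, hs, h1, h2⟩ := hform g hgH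
        exact ⟨α, s, hα, hs, Or.inl (hdiag g α _ h1 h2)⟩
      · have hh : g₀⁻¹ * g ∈ H := by
          rw [Subgroup.mul_mem_iff_of_index_two hindex]
          simp [hgH, hg₀]
        obtain ⟨α, s, hα, hs, h1, h2⟩ := hform _ hh
        have h3 : ∀ y, ρ g y = ρ g₀ (ρ (g₀⁻¹ * g) y) := by
          intro y
          rw [← LinearEquiv.mul_apply, ← map_mul]
          congr 2
          group
        refine ⟨α, s, hα, hs, Or.inr (hanti g α _ ?_ ?_)⟩
        · rw [h3, h1, map_smul, hg₀a]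
        · rw [h3, h2, map_smul, hg₀b]
    · rintro ⟨a, s, ha, hs, hf⟩
      obtain ⟨t, htH, ht1, ht2⟩ := hpair a ha
      obtain ⟨h, hhH, hh1, hh2⟩ : ∃ h ∈ H, ρ h a₀ = a • a₀ ∧ ρ h b₀ = (s * a⁻¹) • b₀ := by
        rcases hs with rfl | rfl
        · exact ⟨t, htH, ht1, by rw [one_mul]; exact ht2⟩
        · refine ⟨t * k₀, H.mul_mem htH hk₀H, ?_, ?_⟩
          · rw [map_mul, LinearEquiv.mul_apply, hk₀a, ht1]
          · rw [map_mul, LinearEquiv.mul_apply, hk₀b, map_smul, ht2, smul_smul]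
      rcases hf with hf | hf
      · refine ⟨h, ?_⟩
        ext1 u
        rw [hf, hdiag h a _ hh1 hh2]
      · refine ⟨g₀ * h, ?_⟩
        ext1 u
        rw [hf, hanti (g₀ * h) a (s * a⁻¹) ?_ ?_]
        · rw [map_mul, LinearEquiv.mul_apply, hh1, map_smul, hg₀a]
        · rw [map_mul, LinearEquiv.mul_apply, hh2, map_smul, hg₀b]
  · right
    refine ⟨?_, rfl⟩
    rw [hVcard, hd]
    norm_num

end

end Cfsg.Agent.Lib.Recog
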